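import Mathlib
import Cfsg.Agent.H702.Spor

/-!
# Alternating groups, and the small groups of Lie type (helper702)
-/

set_option autoImplicit false

namespace Cfsg.Agent.H702.TF

/-- the 2-part of `k` divides `n` -/
theorem Bad.two_pow_dvd {n t c c' k : ℕ} (h : Bad n t c c' k) : 2 ^ k.factorization 2 ∣ n := by
  rw [h.hn]
  exact (Nat.ordProj_dvd k 2).mul_left _

theorem Bad.t_lt {n t c c' k : ℕ} (h : Bad n t c c' k) : t < 2 ^ k.factorization 2 := by
  have h1 := h.hmod 2 Nat.prime_two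
  have h2 : 1 < 2 ^ k.factorization 2 := Nat.one_lt_pow h.h2 one_lt_two
  have := Nat.le_of_dvd (by omega) h1
  omega

theorem four_pow_le (m : ℕ) : 4 ^ (m + 6) ≤ (m + 7).factorial := by
  induction m with
  | zero => decide
  | succ m ih =>
    rw [show m + 1 + 6 = (m + 6) + 1 by ring, pow_succ, show m + 1 + 7 = (m + 7) + 1 by ring, Nat.factorial_succ,
      mul_comm]
    exact Nat.mul_le_mul (by omega) ih

theorem fac_two_lt {m a : ℕ} (h : 2 ^ a ∣ m.factorial) (hm : 0 < m) : a < m := by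
  have : Fact (Nat.Prime 2) := ⟨Nat.prime_two⟩
  have h3 := sub_one_mul_padicValNat_factorial_lt_of_ne_zero (p := 2) hm.ne'
  rw [padicValNat_dvd_iff_le (Nat.factorial_ne_zero m)] at h
  omega

/-- alternating groups -/
theorem not_alt {m n t c c' k : ℕ} (hm : 5 ≤ m) (hn : m.factorial = 2 * n) (h : Bad n t c c' k) : False := by
  -- small primes divide `n`
  have hdn : ∀ r : ℕ, r.Prime → r ≤ m → r ∣ n := by
    intro r hr hrm
    have h2n : 2 ∣ n := by
      have h4 : (4 : ℕ) ∣ m.factorial := (by norm_num : (4 : ℕ) ∣ 2 * 2).trans ((by decide : 2 * 2 ∣ Nat.factorial 5).trans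
        (Nat.factorial_dvd_factorial hm))
      rw [hn] at h4
      omega
    have h1 : r ∣ 2 * n := hn ▸ (hr.dvd_factorial).2 hrm
    rcases hr.dvd_mul.1 h1 with h2 | h2
    · rw [(Nat.prime_dvd_prime_iff_eq hr Nat.prime_two).1 h2]
      exact h2n
    · exact h2
  have ht := h.ht1
  set r := t.minFac with hr
  have hrp : r.Prime := Nat.minFac_prime (by omega)
  have hrt : r ∣ t := Nat.minFac_dvd t
  have hrn : r ∣ n := hrt.trans (by rw [h.hn, mul_assoc]; exact Dvd.intro _ rfl)
  have hrm : r ≤ m := by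
    rw [← hrp.dvd_factorial, hn]
    exact hrn.mul_left _
  have hr2 : r ≠ 2 := by
    intro h2
    exact (Nat.not_even_iff_odd.2 h.ht) (even_iff_two_dvd.2 (h2 ▸ hrt))
  have hr3 := hrp.two_le
  have hcr := h.hcr r hrp hrt
  by_cases hr5 : r = 3
  · -- `c = 2`
    rw [hr5] at hcr
    have hc2 : c ≤ 2 := Nat.le_of_dvd (by norm_num) hcr
    have hc'2 : c' ≤ 2 := (Nat.le_of_dvd (Nat.pos_of_dvd_of_pos hcr (by norm_num)) h.hc').trans hc2
    have hk : k = 2 ^ k.factorization 2 := by
      have h1 : k.primeFactors ⊆ {2} := by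
        intro s hs
        have hsp := Nat.prime_of_mem_primeFactors hs
        have hsk := Nat.dvd_of_mem_primeFactors hs
        have hst : ¬ s ∣ t := fun h1 =>
          hsp.one_lt.ne' (Nat.dvd_one.1 (h.hcop ▸ Nat.dvd_gcd h1 (hsk.mul_left _)))
        have h3 := h.hr s hsp (by rw [h.hn]; exact hsk.mul_left _) hst
        have h4 := Nat.le_of_dvd (Nat.pos_of_dvd_of_pos hcr (by norm_num)) h3
        have := hsp.two_le
        rw [Finset.mem_singleton]
        omega
      have h2 : k.factorization = Finsupp.single 2 (k.factorization 2) := by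
        ext s
        by_cases hs : s = 2
        · rw [hs, Finsupp.single_eq_same]
        · rw [Finsupp.single_apply, if_neg (Ne.symm hs)]
          rw [← Finsupp.notMem_support_iff, Nat.support_factorization]
          intro h3
          exact hs (Finset.mem_singleton.1 (h1 h3))
      conv_lhs => rw [← Nat.prod_factorization_pow_eq_self h.k0, h2]
      simp
    have htl := h.t_lt
    have hdvd := h.two_pow_dvd
    set a := k.factorization 2 with ha
    have hn1 : n < 2 ^ a * 2 * 2 ^ a := by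
      rw [h.hn]
      calc t * c' * k ≤ t * 2 * 2 ^ a := by
            rw [← hk]
            exact Nat.mul_le_mul_right _ (Nat.mul_le_mul_left _ hc'2)
        _ < 2 ^ a * 2 * 2 ^ a := by
            apply Nat.mul_lt_mul_of_pos_right _ (by positivity)
            omega
    rcases Nat.lt_or_ge m 7 with hm7 | hm7
    · interval_cases m
      · have h60 : n = 60 := by
          have : Nat.factorial 5 = 120 := by decide
          omega
        rw [h60] at hdvd hn1
        have ha3 : a < 3 := by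
          by_contra h3
          have := (pow_dvd_pow 2 (not_lt.1 h3)).trans hdvd
          omega
        interval_cases a <;> omega
      · have h360 : n = 360 := by
          have : Nat.factorial 6 = 720 := by decide
          omega
        rw [h360] at hdvd hn1
        have ha3 : a < 4 := by
          by_contra h3
          have := (pow_dvd_pow 2 (not_lt.1 h3)).trans hdvd
          omega
        interval_cases a <;> omega
    · obtain ⟨l, rfl⟩ : ∃ l, m = l + 7 := ⟨m - 7, by omega⟩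
      have h1 := four_pow_le l
      have h2 : a + 1 < l + 7 := by
        apply fac_two_lt _ (by omega)
        rw [hn, pow_succ, mul_comm]
        exact Nat.mul_dvd_mul_left 2 hdvd
      have h3 : 4 ^ (a + 1) ≤ 4 ^ (l + 6) := Nat.pow_le_pow_right (by norm_num) (by omega)
      have h4 : 4 ^ (a + 1) = 4 * (2 ^ a * 2 ^ a) := by
        rw [pow_succ, show (4 : ℕ) = 2 * 2 by norm_num, mul_pow]
        ring
      nlinarith
  · have hr4 : r ≠ 4 := by
      rintro h4
      rw [h4] at hrp
      exact absurd hrp (by norm_num)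
    have h5 : 1 < r - 2 := by omega
    set s := (r - 2).minFac with hs
    have hsp : s.Prime := Nat.minFac_prime (by omega)
    have hsd : s ∣ r - 2 := Nat.minFac_dvd _
    have hsl := Nat.le_of_dvd (by omega) hsd
    have hst : ¬ s ∣ t := fun h1 => by
      have := Nat.minFac_le_of_dvd hsp.two_le h1
      omega
    have h6 := h.hr s hsp (hdn s hsp (by omega)) hst
    have h7 : s ∣ (r - 1) - (r - 2) := Nat.dvd_sub (h6.trans hcr) hsd
    rw [show (r - 1) - (r - 2) = 1 by omega] at h7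
    exact hsp.one_lt.ne' (Nat.dvd_one.1 h7)

/-! ### the groups of Lie type of characteristic `p` with `p ∤ k` -/

/-- the bound -/
theorem Bad.small {n t c c' k p : ℕ} (h : Bad n t c c' k) (hp : p.Prime) (hk : k.factorization p = 0) :
    p ^ (n.factorization p) + 1 ≤ 2 ^ k.factorization 2 := by
  have hpk : ¬ p ∣ k := by
    intro h1
    have := (hp.dvd_iff_one_le_factorization h.k0).1 h1
    omega
  by_cases hpt : p ∣ t
  · have h1 := h.dvd_pow hp hpt
    have h2 := Nat.le_of_dvd (by have := h.ht1; omega) h1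
    have h3 := h.t_lt
    omega
  · have h1 : n.factorization p = c'.factorization p := by
      rw [h.hn, Nat.factorization_mul (mul_ne_zero (by have := h.ht1; omega) h.c'0) h.k0,
        Nat.factorization_mul (by have := h.ht1; omega) h.c'0, Finsupp.add_apply, Finsupp.add_apply,
        Nat.factorization_eq_zero_of_not_dvd hpt, hk]
      omega
    rw [h1]
    have h2 : p ^ (c'.factorization p) ∣ k.factorization 2 :=
      (Nat.ordProj_dvd c' p).trans (h.hc'.trans (h.c_dvd 2))
    have h3 := Nat.le_of_dvd (Nat.pos_of_ne_zero h.h2) h2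
    have h4 : k.factorization 2 < 2 ^ k.factorization 2 := Nat.lt_two_pow_self
    omega

theorem Bad.small' {n t c c' k p v : ℕ} (h : Bad n t c c' k) (hp : p.Prime) (hk : k.factorization p = 0)
    (hv : p ^ v ∣ n) : p ^ v + 1 ≤ 2 ^ k.factorization 2 := by
  have h1 := (hp.pow_dvd_iff_le_factorization h.hn0).1 hv
  have h2 := Nat.pow_le_pow_right hp.pos h1
  have h3 := h.small hp hk
  omega

/-- one of `q - 1`, `q + 1` -/
theorem two_pow_cases {q a : ℕ} (hq : q % 2 = 1) (hq1 : 1 < q) (h : 2 ^ (a + 1) ∣ (q - 1) * (q + 1)) (ha : 1 ≤ a) :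
    2 ^ a ∣ q - 1 ∨ 2 ^ a ∣ q + 1 := by
  obtain ⟨m, rfl⟩ : ∃ m, q = 2 * m + 1 := ⟨q / 2, by omega⟩
  obtain ⟨b, rfl⟩ : ∃ b, a = b + 1 := ⟨a - 1, by omega⟩
  have h1 : (2 * m + 1 - 1) * (2 * m + 1 + 1) = 4 * (m * (m + 1)) := by
    rw [Nat.add_sub_cancel]
    ring
  rw [h1, show b + 1 + 1 = b + 2 by ring, pow_add, mul_comm] at h
  have h2 : 2 ^ b ∣ m * (m + 1) := Nat.dvd_of_mul_dvd_mul_left (by norm_num : 0 < 4) (by simpa using h)
  have h3 : m.Coprime (m + 1) := by simp
  rw [Nat.add_sub_cancel, show 2 * m + 1 + 1 = 2 * (m + 1) by ring, pow_succ, mul_comm (2 ^ b)]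
  rcases Nat.even_or_odd m with h4 | h4
  · left
    apply Nat.mul_dvd_mul_left
    have h5 : (2 ^ b).Coprime (m + 1) := Nat.Coprime.pow_left _ ((Nat.coprime_two_left).2 h4.add_one)
    exact h5.dvd_of_dvd_mul_right h2
  · right
    apply Nat.mul_dvd_mul_left
    have h5 : (2 ^ b).Coprime m := Nat.Coprime.pow_left _ ((Nat.coprime_two_left).2 h4)
    exact h5.dvd_of_dvd_mul_left h2

theorem three_dvd {b : ℕ} : 3 ∣ 2 ^ (2 * b) - 1 := by
  have := Nat.sub_dvd_pow_sub_pow 4 1 b
  rw [one_pow, show (4 : ℕ) = 2 ^ 2 by norm_num, ← pow_mul] at this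
  exact this

/-- `PSL₂(p)`, `PSL₂(p²)` -/
theorem Bad.not_l2 {n t c c' k p f q : ℕ} (h : Bad n t c c' k) (hp : p.Prime) (hp2 : p ≠ 2)
    (hk : k.factorization p = 0) (hf : 0 < f) (hf2 : f ≤ 2) (hqf : q = p ^ f) (hq4 : 4 ≤ q)
    (hn : 2 * n = q * (q ^ 2 - 1)) : False := by
  have hpo : p % 2 = 1 := hp.eq_two_or_odd.resolve_left hp2
  have hqo : Odd q := by
    rw [hqf]
    exact (Nat.odd_iff.2 hpo).pow
  have h1 : q ∣ n := by
    have : q ∣ 2 * n := hn ▸ Dvd.intro _ rfl
    exact ((Nat.coprime_two_right).2 hqo).dvd_of_dvd_mul_left this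
  have h2 := h.small' hp hk (hqf ▸ h1)
  rw [← hqf] at h2
  have h3 : 2 ^ (k.factorization 2 + 1) ∣ (q - 1) * (q + 1) := by
    have h4 : 2 ^ (k.factorization 2 + 1) ∣ q * (q ^ 2 - 1) := by
      rw [← hn, pow_succ, mul_comm]
      exact Nat.mul_dvd_mul_left 2 h.two_pow_dvd
    have h5 : (2 ^ (k.factorization 2 + 1)).Coprime q := Nat.Coprime.pow_left _ ((Nat.coprime_two_left).2 hqo)
    have h6 := h5.dvd_of_dvd_mul_left h4
    rwa [show q ^ 2 - 1 = (q - 1) * (q + 1) by
      rw [mul_comm, ← Nat.sq_sub_sq, one_pow]] at h6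
  have h7 : k.factorization 2 ≠ 0 := h.h2
  have h8 : q + 1 = 2 ^ k.factorization 2 := by
    rcases two_pow_cases (Nat.odd_iff.1 hqo) (by omega) h3 (by omega) with h9 | h9
    · have := Nat.le_of_dvd (by omega) h9
      omega
    · have := Nat.le_of_dvd (by omega) h9
      omega
  obtain ⟨b, hb⟩ := h.two_dvd.trans (h.c_dvd 2)
  have h9 := @three_dvd b
  rw [← hb, ← h8, Nat.add_sub_cancel, hqf] at h9
  have h10 : p = 3 := ((Nat.prime_dvd_prime_iff_eq Nat.prime_three hp).1 (Nat.prime_three.dvd_of_dvd_pow h9)).symm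
  subst h10
  interval_cases f
  · omega
  · have h11 : k.factorization 2 < 4 := by
      by_contra h12
      have := Nat.pow_le_pow_right (n := 2) (by norm_num) (not_lt.1 h12)
      omega
    interval_cases k.factorization 2 <;> omega

/-- `PSL₃(p)` -/
theorem Bad.not_l3 {n t c c' k p d : ℕ} (h : Bad n t c c' k) (hp : p.Prime) (hp2 : p ≠ 2)
    (hk : k.factorization p = 0) (hd : d ∣ p - 1) (hn : d * n = p ^ 3 * ((p ^ 3 - 1) * (p ^ 2 - 1))) : False := by
  have hp1 := hp.two_le
  have hpo : Odd p := hp.odd_of_ne_two hp2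
  have hdp : (p ^ 3).Coprime d := by
    apply Nat.Coprime.pow_left
    rw [hp.coprime_iff_not_dvd]
    intro h1
    have := Nat.le_of_dvd (by omega) (h1.trans hd)
    omega
  have h1 : p ^ 3 ∣ n := hdp.dvd_of_dvd_mul_left (hn ▸ Dvd.intro _ rfl)
  have h2 := h.small' hp hk h1
  obtain ⟨m, rfl⟩ : ∃ m, p = m + 1 := ⟨p - 1, by omega⟩
  have e1 : (m + 1) ^ 3 - 1 = m * ((m + 1) ^ 2 + (m + 1) + 1) := by
    rw [Nat.sub_eq_iff_eq_add (Nat.one_le_pow _ _ (by omega))]
    ring
  have e2 : (m + 1) ^ 2 - 1 = m * (m + 2) := by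
    rw [Nat.sub_eq_iff_eq_add (Nat.one_le_pow _ _ (by omega))]
    ring
  have h3 : 2 ^ k.factorization 2 ∣ ((m + 1) ^ 3 * ((m + 1) ^ 2 + (m + 1) + 1)) * (m * (m * (m + 2))) := by
    have h4 : 2 ^ k.factorization 2 ∣ d * n := h.two_pow_dvd.mul_left _
    rw [hn, e1, e2] at h4
    convert h4 using 1
    ring
  have h5 : Odd ((m + 1) ^ 3 * ((m + 1) ^ 2 + (m + 1) + 1)) := by
    apply (hpo.pow).mul
    exact ((hpo.pow).add_odd hpo).add_one
  have h6 := (Nat.Coprime.pow_left _ ((Nat.coprime_two_left).2 h5)).dvd_of_dvd_mul_left h3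
  have h7 := Nat.le_of_dvd (by have : 0 < m := by omega
                               positivity) h6
  have h8 : m * (m * (m + 2)) < (m + 1) ^ 3 := by ring_nf; omega
  omega

/-- `PSU₃(p)` -/
theorem Bad.not_u3 {n t c c' k p d : ℕ} (h : Bad n t c c' k) (hp : p.Prime) (hp2 : p ≠ 2)
    (hk : k.factorization p = 0) (hd : d ∣ p + 1) (hn : d * n = p ^ 3 * ((p ^ 3 + 1) * (p ^ 2 - 1))) : False := by
  have hp1 := hp.two_le
  have hpo : Odd p := hp.odd_of_ne_two hp2
  have hdp : (p ^ 3).Coprime d := by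
    apply Nat.Coprime.pow_left
    rw [hp.coprime_iff_not_dvd]
    intro h1
    have h2 := (Nat.dvd_add_right (dvd_refl p)).1 (h1.trans hd)
    exact hp.one_lt.ne' (Nat.dvd_one.1 h2)
  have h1 : p ^ 3 ∣ n := hdp.dvd_of_dvd_mul_left (hn ▸ Dvd.intro _ rfl)
  have h2 := h.small' hp hk h1
  obtain ⟨m, rfl⟩ : ∃ m, p = 2 * m + 1 := ⟨p / 2, by have := Nat.odd_iff.1 hpo; omega⟩
  have hm : 0 < m := by omega
  have e1 : (2 * m + 1) ^ 3 + 1 = 2 * (m + 1) * (4 * m ^ 2 + 2 * m + 1) := by ring
  have e2 : (2 * m + 1) ^ 2 - 1 = 4 * (m * (m + 1)) := by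
    rw [Nat.sub_eq_iff_eq_add (Nat.one_le_pow _ _ (by omega))]
    ring
  have h3 : 2 ^ k.factorization 2 ∣ ((2 * m + 1) ^ 3 * (4 * m ^ 2 + 2 * m + 1)) * (8 * (m * (m + 1) ^ 2)) := by
    have h4 : 2 ^ k.factorization 2 ∣ d * n := h.two_pow_dvd.mul_left _
    rw [hn, e1, e2] at h4
    convert h4 using 1
    ring
  have h5 : Odd ((2 * m + 1) ^ 3 * (4 * m ^ 2 + 2 * m + 1)) := by
    apply (hpo.pow).mul
    exact ⟨2 * m ^ 2 + m, by ring⟩
  have h6 := (Nat.Coprime.pow_left _ ((Nat.coprime_two_left).2 h5)).dvd_of_dvd_mul_left h3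
  rcases Nat.even_or_odd m with h7 | h7
  · have h8 : (2 ^ k.factorization 2).Coprime ((m + 1) ^ 2) :=
      Nat.Coprime.pow_left _ ((Nat.coprime_two_left).2 (h7.add_one.pow))
    have h9 : 2 ^ k.factorization 2 ∣ 8 * m := by
      apply h8.dvd_of_dvd_mul_right
      rwa [mul_assoc]
    have h10 := Nat.le_of_dvd (by omega) h9
    have h11 : 8 * m < (2 * m + 1) ^ 3 := by
      ring_nf
      nlinarith [Nat.zero_le (m ^ 3), Nat.zero_le (m ^ 2), sq_nonneg (m : ℤ)]
    omega
  · have h8 : (2 ^ k.factorization 2).Coprime m :=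
      Nat.Coprime.pow_left _ ((Nat.coprime_two_left).2 h7)
    have h9 : 2 ^ k.factorization 2 ∣ 8 * (m + 1) ^ 2 := by
      apply h8.dvd_of_dvd_mul_left
      convert h6 using 1
      ring
    have h10 := Nat.le_of_dvd (by positivity) h9
    rcases Nat.lt_or_ge m 2 with hm2 | hm2
    · obtain rfl : m = 1 := by omega
      norm_num at h2 h10
      obtain ⟨b, hb⟩ := h.two_dvd.trans (h.c_dvd 2)
      rw [hb] at h2 h10
      have h11 : b < 3 := by
        by_contra h12
        have := Nat.pow_le_pow_right (n := 2) (by norm_num) (show 6 ≤ 2 * b by omega)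
        omega
      interval_cases b <;> omega
    · have h11 : 8 * (m + 1) ^ 2 < (2 * m + 1) ^ 3 := by
        obtain ⟨l, rfl⟩ : ∃ l, m = l + 2 := ⟨m - 2, by omega⟩
        ring_nf
        nlinarith [Nat.zero_le (l ^ 3), Nat.zero_le (l ^ 2)]
      omega

end Cfsg.Agent.H702.TF
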