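import Mathlib
import Cfsg.Agent.Lib.Zsigmondy

/-!
# Arithmetic of the 2-Frobenius order type problem (helper702)

`Bad n t c c' k` : the numerical data of a simple group `S` of order `n` with an isolated cyclic Hall subgroup `T` of
order `t`, `|N_S(T) : T| = c'`, `|S : N_S(T)| = k`, coming from a group with the order type of a 2-Frobenius group.
`Key n p M` : the consequence used for a prime `p` dividing `k`, `M = v_p(k)`.
-/

set_option autoImplicit false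

namespace Cfsg.Agent.H702.TF

/-- the numerical data -/
structure Bad (n t c c' k : ℕ) : Prop where
  hn : n = t * c' * k
  hc' : c' ∣ c
  ht : Odd t
  ht1 : 1 < t
  hcop : t.Coprime (c' * k)
  hr : ∀ r : ℕ, r.Prime → r ∣ n → ¬ r ∣ t → r ∣ c
  hcr : ∀ r : ℕ, r.Prime → r ∣ t → c ∣ r - 1
  hk : ∃ y, k = y ^ c
  hmod : ∀ s : ℕ, s.Prime → t ∣ s ^ (k.factorization s) - 1
  h2 : k.factorization 2 ≠ 0
  hn0 : n ≠ 0

/-- the consequence for one prime -/
structure Key (n p M : ℕ) : Prop where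
  pos : 0 < M
  le : M ≤ n.factorization p
  dvd : p ∣ M
  two : 2 ∣ M
  h : ∀ r : ℕ, r.Prime → r ≠ p → r ∣ n → r ∣ M ∨ r ^ (n.factorization r) ∣ p ^ M - 1

theorem Bad.k0 {n t c c' k : ℕ} (h : Bad n t c c' k) : k ≠ 0 := by
  rintro rfl
  exact h.hn0 (by rw [h.hn, mul_zero])

theorem Bad.c'0 {n t c c' k : ℕ} (h : Bad n t c c' k) : c' ≠ 0 := by
  rintro rfl
  exact h.hn0 (by rw [h.hn, mul_zero, zero_mul])

theorem Bad.two_dvd {n t c c' k : ℕ} (h : Bad n t c c' k) : 2 ∣ c := by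
  have h1 : 2 ∣ k := by
    by_contra h3
    exact h.h2 (Nat.factorization_eq_zero_of_not_dvd h3)
  refine h.hr 2 Nat.prime_two ?_ ?_
  · rw [h.hn]
    exact h1.mul_left _
  · intro h3
    exact (Nat.not_even_iff_odd.2 h.ht) (even_iff_two_dvd.2 h3)

theorem Bad.c_dvd {n t c c' k : ℕ} (h : Bad n t c c' k) (p : ℕ) : c ∣ k.factorization p := by
  obtain ⟨y, rfl⟩ := h.hk
  rw [Nat.factorization_pow]
  simp

theorem Bad.dvd_pow {n t c c' k : ℕ} (h : Bad n t c c' k) {r : ℕ} (hr : r.Prime) (hrt : r ∣ t) :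
    r ^ (n.factorization r) ∣ t := by
  have h1 : ¬ r ∣ c' * k := fun h2 => hr.one_lt.ne' (Nat.dvd_one.1 (h.hcop ▸ Nat.dvd_gcd hrt h2))
  have h3 : n.factorization r = t.factorization r := by
    rw [h.hn, mul_assoc, Nat.factorization_mul (by have := h.ht1; omega) (mul_ne_zero h.c'0 h.k0),
      Finsupp.add_apply, Nat.factorization_eq_zero_of_not_dvd h1, add_zero]
  rw [h3]
  exact Nat.ordProj_dvd t r

theorem Bad.key {n t c c' k : ℕ} (h : Bad n t c c' k) {p : ℕ} (hp : p.Prime) (hM : k.factorization p ≠ 0) :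
    Key n p (k.factorization p) := by
  have hpk : p ∣ k := by
    by_contra h1
    exact hM (Nat.factorization_eq_zero_of_not_dvd h1)
  have hpn : p ∣ n := by
    rw [h.hn]
    exact hpk.mul_left _
  have hpt : ¬ p ∣ t := fun h2 =>
    hp.one_lt.ne' (Nat.dvd_one.1 (h.hcop ▸ Nat.dvd_gcd h2 (hpk.mul_left _)))
  refine ⟨Nat.pos_of_ne_zero hM, ?_, ?_, ?_, ?_⟩
  · have h1 : k ∣ n := by rw [h.hn]; exact Dvd.intro_left _ rfl
    exact (Nat.factorization_le_iff_dvd h.k0 h.hn0).2 h1 p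
  · exact (h.hr p hp hpn hpt).trans (h.c_dvd p)
  · exact h.two_dvd.trans (h.c_dvd p)
  · intro r hr hrp hrn
    by_cases hrt : r ∣ t
    · exact Or.inr ((h.dvd_pow hr hrt).trans (h.hmod p hp))
    · exact Or.inl ((h.hr r hr hrn hrt).trans (h.c_dvd p))

/-- a primitive prime divisor of `p ^ e - 1` divides `n` -/
def Has (n p e : ℕ) : Prop :=
  ∃ r : ℕ, r.Prime ∧ (∀ m, r ∣ p ^ m - 1 ↔ e ∣ m) ∧ e ∣ r - 1 ∧ r ∣ n ∧ r ≠ p

theorem has_of {p e d n g : ℕ} (hp : p.Prime) (he : 2 ≤ e) (hex : e = 2 → ¬ ∃ k, p + 1 = 2 ^ k)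
    (h26 : ¬ (p = 2 ∧ e = 6)) (hdvd : ∀ r : ℕ, r.Prime → (∀ m, r ∣ p ^ m - 1 ↔ e ∣ m) → r ∣ d * n)
    (hd : ∀ r : ℕ, r.Prime → r ∣ d → r ∣ p ^ g - 1 ∨ r = 2) (hg : ¬ e ∣ g) : Has n p e := by
  obtain ⟨r, hr, h1, h2, h3⟩ := Lib.Zsigmondy.exists_primitive hp.two_le he hex h26
  refine ⟨r, hr, h1, h2, ?_, ?_⟩
  · have h4 : r ∣ d * n := hdvd r hr h1
    rcases (hr.dvd_mul).1 h4 with h5 | h5
    · exfalso
      rcases hd r hr h5 with h6 | h6
      · exact hg ((h1 g).1 h6)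
      · subst h6
        rcases hp.eq_two_or_odd with h7 | h7
        · exact h3 (by rw [h7])
        · have h8 : 2 ∣ p ^ 1 - 1 := by
            rw [pow_one]
            omega
          have h9 := Nat.le_of_dvd (by norm_num) ((h1 1).1 h8)
          omega
    · exact h5
  · rintro rfl
    exact h3 dvd_rfl

/-- the prime is large -/
theorem lt_of_dvd_pred {e r : ℕ} (hr : r.Prime) (h : e ∣ r - 1) : e + 1 ≤ r := by
  have h1 := hr.two_le
  have h2 := Nat.le_of_dvd (by omega) h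
  omega

theorem Key.has {n p M e : ℕ} (h : Key n p M) (he : Has n p e) (hn0 : n ≠ 0) :
    ∃ r : ℕ, r.Prime ∧ (∀ m, r ∣ p ^ m - 1 ↔ e ∣ m) ∧ e ∣ r - 1 ∧ (r ∣ M ∨ e ∣ M) := by
  obtain ⟨r, hr, h1, h2, h3, h4⟩ := he
  refine ⟨r, hr, h1, h2, ?_⟩
  rcases h.h r hr h4 h3 with h5 | h5
  · exact Or.inl h5
  · right
    rw [← h1]
    have h6 : n.factorization r ≠ 0 := (hr.factorization_pos_of_dvd hn0 h3).ne'
    exact (dvd_pow_self r h6).trans h5

/-- two primitive primes: both exponents divide `M` -/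
theorem two {N f M j j' r r' : ℕ} (hf : 0 < f) (hM : 0 < M) (hMN : M ≤ f * N) (hr : r.Prime) (hr' : r'.Prime)
    (hne : r ≠ r') (hj : j * f ∣ r - 1) (hj' : j' * f ∣ r' - 1) (h : r ∣ M ∨ j * f ∣ M) (h' : r' ∣ M ∨ j' * f ∣ M)
    (j0 : 0 < j) (j0' : 0 < j') (c1 : N ≤ j * j' + j + j') (c2 : N < (j + 1) * j') (c3 : N < (j' + 1) * j)
    (hnd : ¬ r ∣ j') (hnd' : ¬ r' ∣ j) : f * Nat.lcm j j' ∣ M := by
  have hr1 := lt_of_dvd_pred hr hj
  have hr1' := lt_of_dvd_pred hr' hj'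
  have hjf : f ≤ j * f := Nat.le_mul_of_pos_left f j0
  have hjf' : f ≤ j' * f := Nat.le_mul_of_pos_left f j0'
  have hrf : ¬ r ∣ f := fun h1 => by
    have := Nat.le_of_dvd hf h1
    omega
  have hrf' : ¬ r' ∣ f := fun h1 => by
    have := Nat.le_of_dvd hf h1
    omega
  rcases h with h | h <;> rcases h' with h' | h'
  · exfalso
    have h1 : r * r' ∣ M := ((Nat.coprime_primes hr hr').2 hne).mul_dvd_of_dvd_of_dvd h h'
    have h2 := Nat.le_of_dvd hM h1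
    have h3 : (j * f + 1) * (j' * f + 1) ≤ r * r' := Nat.mul_le_mul hr1 hr1'
    have h4 : (j * f + 1) * (j' * f + 1) = (j * j' * f + j + j') * f + 1 := by ring
    have h5 : f * N ≤ f * (j * j' * f + j + j') := by
      apply Nat.mul_le_mul_left
      have : j * j' * 1 ≤ j * j' * f := Nat.mul_le_mul_left _ hf
      omega
    have h6 : f * (j * j' * f + j + j') = (j * j' * f + j + j') * f := mul_comm _ _
    omega
  · exfalso
    have h1 : r.Coprime (j' * f) := by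
      rw [hr.coprime_iff_not_dvd, hr.dvd_mul]
      tauto
    have h2 := Nat.le_of_dvd hM (h1.mul_dvd_of_dvd_of_dvd h h')
    have h3 : (j + 1) * (j' * f) ≤ r * (j' * f) := by
      apply Nat.mul_le_mul_right
      have : j * 1 ≤ j * f := Nat.mul_le_mul_left _ hf
      omega
    have h4 : f * (N + 1) ≤ f * ((j + 1) * j') := Nat.mul_le_mul_left _ c2
    have h5 : f * ((j + 1) * j') = (j + 1) * (j' * f) := by ring
    have h6 : f * (N + 1) = f * N + f := by ring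
    omega
  · exfalso
    have h1 : r'.Coprime (j * f) := by
      rw [hr'.coprime_iff_not_dvd, hr'.dvd_mul]
      tauto
    have h2 := Nat.le_of_dvd hM (h1.mul_dvd_of_dvd_of_dvd h' h)
    have h3 : (j' + 1) * (j * f) ≤ r' * (j * f) := by
      apply Nat.mul_le_mul_right
      have : j' * 1 ≤ j' * f := Nat.mul_le_mul_left _ hf
      omega
    have h4 : f * (N + 1) ≤ f * ((j' + 1) * j) := Nat.mul_le_mul_left _ c3
    have h5 : f * ((j' + 1) * j) = (j' + 1) * (j * f) := by ring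
    have h6 : f * (N + 1) = f * N + f := by ring
    omega
  · obtain ⟨a, ha⟩ := h
    have h1 : f ∣ M := ⟨j * a, by rw [ha]; ring⟩
    obtain ⟨b, hb⟩ := h1
    subst hb
    apply Nat.mul_dvd_mul_left
    apply Nat.lcm_dvd
    · have h2 : f * j ∣ f * b := ⟨a, by rw [ha]; ring⟩
      exact Nat.dvd_of_mul_dvd_mul_left hf h2
    · have h2 : f * j' ∣ f * b := by rwa [mul_comm f j']
      exact Nat.dvd_of_mul_dvd_mul_left hf h2

theorem ne_of_ord {p e e' r r' : ℕ} (h : ∀ m, r ∣ p ^ m - 1 ↔ e ∣ m) (h' : ∀ m, r' ∣ p ^ m - 1 ↔ e' ∣ m)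
    (hne : e ≠ e') : r ≠ r' := by
  rintro rfl
  apply hne
  apply Nat.dvd_antisymm
  · rw [← h, h']
  · rw [← h', h]

/-- the factorization of a number with the `p`-part in evidence -/
theorem fac_le {p d n a X : ℕ} (hp : p.Prime) (h : d * n = p ^ a * X) (hX : ¬ p ∣ X) (hn : n ≠ 0) :
    n.factorization p ≤ a := by
  have hX0 : X ≠ 0 := by
    rintro rfl
    exact hX (dvd_zero p)
  have hd0 : d ≠ 0 := by
    rintro rfl
    rw [zero_mul] at h
    exact (mul_ne_zero (pow_pos hp.pos a).ne' hX0) h.symm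
  have h1 : (d * n).factorization p = a := by
    rw [h, Nat.factorization_mul (pow_pos hp.pos a).ne' hX0, Finsupp.add_apply, hp.factorization_pow,
      Finsupp.single_eq_same, Nat.factorization_eq_zero_of_not_dvd hX, add_zero]
  rw [Nat.factorization_mul hd0 hn, Finsupp.add_apply] at h1
  omega

/-- `p` does not divide `p ^ a - 1` -/
theorem not_dvd_sub {p a : ℕ} (hp : p.Prime) (ha : 0 < a) : ¬ p ∣ p ^ a - 1 := by
  intro h
  have h1 : p ∣ p ^ a := dvd_pow_self p ha.ne'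
  have h2 : 1 ≤ p ^ a := Nat.one_le_pow _ _ hp.pos
  have h3 : p ∣ p ^ a - (p ^ a - 1) := Nat.dvd_sub h1 h
  rw [show p ^ a - (p ^ a - 1) = 1 by omega] at h3
  exact hp.one_lt.ne' (Nat.dvd_one.1 h3)

theorem not_dvd_add {p a : ℕ} (hp : p.Prime) (ha : 0 < a) : ¬ p ∣ p ^ a + 1 := by
  intro h
  have h1 : p ∣ p ^ a := dvd_pow_self p ha.ne'
  exact hp.one_lt.ne' (Nat.dvd_one.1 ((Nat.dvd_add_right h1).1 h))

/-- `r ∣ p ^ g + 1` if the order of `p` mod `r` is `2 g` -/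
theorem dvd_add {p g r : ℕ} (hp : p.Prime) (hg : 0 < g) (hr : r.Prime) (h : ∀ m, r ∣ p ^ m - 1 ↔ 2 * g ∣ m) :
    r ∣ p ^ g + 1 := by
  have h1 := (h (2 * g)).2 dvd_rfl
  have h2 : p ^ (2 * g) - 1 = (p ^ g + 1) * (p ^ g - 1) := by
    rw [← Nat.sq_sub_sq, one_pow, ← pow_mul, mul_comm g 2]
  rw [h2] at h1
  rcases hr.dvd_mul.1 h1 with h3 | h3
  · exact h3
  · have h4 := Nat.le_of_dvd hg ((h g).1 h3)
    omega

theorem Key.pow {n p M r v : ℕ} (h : Key n p M) (hn0 : n ≠ 0) (hr : r.Prime) (hrp : r ≠ p) (hv : 0 < v)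
    (hd : r ^ v ∣ n) : r ∣ M ∨ r ^ v ∣ p ^ M - 1 := by
  rcases h.h r hr hrp ((dvd_pow_self r hv.ne').trans hd) with h1 | h1
  · exact Or.inl h1
  · exact Or.inr ((pow_dvd_pow r ((hr.pow_dvd_iff_le_factorization hn0).1 hd)).trans h1)

theorem Key.weak {n p M r : ℕ} (h : Key n p M) (hn0 : n ≠ 0) (hr : r.Prime) (hrp : r ≠ p)
    (hd : r ∣ n) : r ∣ M ∨ r ∣ p ^ M - 1 := by
  have := h.pow (v := 1) hn0 hr hrp one_pos (by rwa [pow_one])
  rwa [pow_one] at this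

/-- a primitive prime for an exponent `e ≥ M` -/
theorem Key.big {n p M e : ℕ} (h : Key n p M) (hn0 : n ≠ 0) (he : Has n p e) (hle : M ≤ e) : M = e := by
  obtain ⟨r, hr, -, h2, h3⟩ := h.has he hn0
  have h4 := lt_of_dvd_pred hr h2
  rcases h3 with h3 | h3
  · have := Nat.le_of_dvd h.pos h3
    omega
  · exact le_antisymm hle (Nat.le_of_dvd h.pos h3)

theorem lte {p e M r v : ℕ} (hp : p.Prime) (hr : r.Prime) (hr2 : r ≠ 2) (he0 : 0 < e) (hre : r ∣ p ^ e - 1)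
    (heM : e ∣ M) (hM : 0 < M) (hrM : ¬ r ∣ M) (h : r ^ v ∣ p ^ M - 1) : r ^ v ∣ p ^ e - 1 := by
  have := Fact.mk hr
  obtain ⟨m, rfl⟩ := heM
  have hm0 : m ≠ 0 := by
    rintro rfl
    simp at hM
  have h1 : 1 < p ^ e := Nat.one_lt_pow he0.ne' hp.one_lt
  have hrp : ¬ r ∣ p ^ e := by
    intro h2
    have h3 : r ∣ p ^ e - (p ^ e - 1) := Nat.dvd_sub h2 hre
    rw [show p ^ e - (p ^ e - 1) = 1 by omega] at h3
    exact hr.one_lt.ne' (Nat.dvd_one.1 h3)
  have h2 := padicValNat.pow_sub_pow (p := r) (hr.odd_of_ne_two hr2) h1 hre hrp hm0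
  rw [one_pow, ← pow_mul, padicValNat.eq_zero_of_not_dvd (n := m) (fun h => hrM (h.mul_left _)), add_zero] at h2
  have h3 : p ^ (e * m) - 1 ≠ 0 := by
    have : 1 < p ^ (e * m) := Nat.one_lt_pow (by positivity) hp.one_lt
    omega
  have h4 : p ^ e - 1 ≠ 0 := by omega
  rw [padicValNat_dvd_iff_le h3, h2] at h
  rwa [padicValNat_dvd_iff_le h4]

/-- a primitive prime of multiplicity two -/
theorem Key.mult {n p M e d X Y r : ℕ} (h : Key n p M) (hn0 : n ≠ 0) (hp : p.Prime) (he : 2 ≤ e) (hr : r.Prime)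
    (h1 : ∀ m, r ∣ p ^ m - 1 ↔ e ∣ m) (hrp : r ≠ p)
    (hX : ∀ v, r ^ v ∣ p ^ e - 1 → r ^ v ∣ X) (hY : ∀ v, r ^ v ∣ p ^ e - 1 → r ^ v ∣ Y) (hXY : X * Y ∣ d * n)
    (hd : ¬ r ∣ d) : r ∣ M := by
  by_contra hrM
  have := Fact.mk hr
  have hr2 : r ≠ 2 := by
    rintro rfl
    rcases hp.eq_two_or_odd with h7 | h7
    · exact hrp h7.symm
    · have h8 : 2 ∣ p ^ 1 - 1 := by
        rw [pow_one]
        omega
      have h9 := Nat.le_of_dvd (by norm_num) ((h1 1).1 h8)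
      omega
  have hpe : p ^ e - 1 ≠ 0 := by
    have : 1 < p ^ e := Nat.one_lt_pow (by omega) hp.one_lt
    omega
  set w := padicValNat r (p ^ e - 1) with hw
  have hwd : r ^ w ∣ p ^ e - 1 := by rw [padicValNat_dvd_iff_le hpe]
  have hw0 : 0 < w := by
    rw [hw]
    exact one_le_padicValNat_of_dvd hpe ((h1 e).2 dvd_rfl)
  have h2 : r ^ (w + w) ∣ d * n := by
    rw [pow_add]
    exact (mul_dvd_mul (hX w hwd) (hY w hwd)).trans hXY
  have h3 : r ^ (w + w) ∣ n :=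
    (Nat.Coprime.pow_left _ ((hr.coprime_iff_not_dvd).2 hd)).dvd_of_dvd_mul_left h2
  rcases h.pow hn0 hr hrp (by omega) h3 with h4 | h4
  · exact hrM h4
  · have h5 : e ∣ M := (h1 M).1 ((dvd_pow_self r (by omega)).trans h4)
    have h6 := lte hp hr hr2 (by omega) ((h1 e).2 dvd_rfl) h5 h.pos hrM h4
    rw [padicValNat_dvd_iff_le hpe] at h6
    omega

theorem pow_sub_dvd (p a b : ℕ) (h : a ∣ b) : p ^ a - 1 ∣ p ^ b - 1 := by
  obtain ⟨c, rfl⟩ := h
  have := Nat.sub_dvd_pow_sub_pow (p ^ a) 1 c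
  rwa [one_pow, ← pow_mul] at this

end Cfsg.Agent.H702.TF
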