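import Mathlib
import Cfsg.Agent.H702.Key

/-!
# The exceptional families have no `Key` (helper702)
-/

set_option autoImplicit false

namespace Cfsg.Agent.H702.TF

/-- the `p`-part bound -/
theorem Key.le_of {n p M d a X : ℕ} (h : Key n p M) (hn0 : n ≠ 0) (hp : p.Prime) (he : d * n = p ^ a * X)
    (hX : ¬ p ∣ X) : M ≤ a := h.le.trans (fac_le hp he hX hn0)

theorem not_dvd_mul {p a b : ℕ} (hp : p.Prime) (ha : ¬ p ∣ a) (hb : ¬ p ∣ b) : ¬ p ∣ a * b := by
  rw [hp.dvd_mul]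
  tauto

theorem gcd_case {p f g c : ℕ} (h : ∀ r : ℕ, r.Prime → r ∣ c → r ∣ p ^ g - 1) :
    ∀ r : ℕ, r.Prime → r ∣ c → r ∣ p ^ g - 1 ∨ r = 2 := fun r hr h1 => Or.inl (h r hr h1)

/-- Suzuki groups -/
theorem not_sz {p f n M : ℕ} (hp : p.Prime) (hf : 0 < f) (hn0 : n ≠ 0)
    (hn : n = (p ^ f) ^ 2 * ((p ^ f - 1) * ((p ^ f) ^ 2 + 1))) (K : Key n p M) : False := by
  have hM : M ≤ f * 2 := by
    refine K.le_of hn0 hp (d := 1) (X := (p ^ f - 1) * ((p ^ f) ^ 2 + 1)) (by rw [one_mul, hn, pow_mul]) ?_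
    rw [← pow_mul]
    exact not_dvd_mul hp (not_dvd_sub hp hf) (not_dvd_add hp (by positivity))
  have h4 : Has n p (2 * (2 * f)) := by
    refine has_of (d := 1) (g := 1) hp (by omega) (by omega) (by omega) ?_ ?_ ?_
    · intro r hr h1
      have h2 := dvd_add hp (by omega) hr h1
      rw [hn, one_mul, ← pow_mul, mul_comm f 2]
      exact (h2.mul_left _).mul_left _
    · intro r hr h
      exact absurd (Nat.dvd_one.1 h) hr.one_lt.ne'
    · intro h
      have := Nat.le_of_dvd one_pos h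
      omega
  have h5 := K.big hn0 h4 (by omega)
  omega

/-- Ree groups of type `G₂` -/
theorem not_ree {p f n M : ℕ} (hp : p.Prime) (hf : 0 < f) (hn0 : n ≠ 0) (h2 : p ≠ 2)
    (hn : n = (p ^ f) ^ 3 * ((p ^ f - 1) * ((p ^ f) ^ 3 + 1))) (K : Key n p M) : False := by
  have hM : M ≤ f * 3 := by
    refine K.le_of hn0 hp (d := 1) (X := (p ^ f - 1) * ((p ^ f) ^ 3 + 1)) (by rw [one_mul, hn, pow_mul]) ?_
    rw [← pow_mul]
    exact not_dvd_mul hp (not_dvd_sub hp hf) (not_dvd_add hp (by positivity))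
  have h4 : Has n p (2 * (3 * f)) := by
    refine has_of (d := 1) (g := 1) hp (by omega) (by omega) (by omega) ?_ ?_ ?_
    · intro r hr h1
      have h2 := dvd_add hp (by omega) hr h1
      rw [hn, one_mul, ← pow_mul, mul_comm f 3]
      exact (h2.mul_left _).mul_left _
    · intro r hr h
      exact absurd (Nat.dvd_one.1 h) hr.one_lt.ne'
    · intro h
      have := Nat.le_of_dvd one_pos h
      omega
  have h5 := K.big hn0 h4 (by omega)
  omega

/-- no divisor of a small denominator -/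
theorem has_gcd {n p e d c g : ℕ} (hp : p.Prime) (he : 3 ≤ e) (h26 : ¬ (p = 2 ∧ e = 6))
    (hdvd : p ^ e - 1 ∣ Nat.gcd d c * n) (hc : c ∣ p ^ g - 1) (hg : ¬ e ∣ g) : Has n p e := by
  refine has_of (d := Nat.gcd d c) (g := g) hp (by omega) (by omega) h26 ?_ ?_ hg
  · intro r hr h1
    exact ((h1 e).2 dvd_rfl).trans hdvd
  · intro r hr h
    exact Or.inl ((h.trans (Nat.gcd_dvd_right _ _)).trans hc)

theorem r_not_dvd {e r f m : ℕ} (hr : r.Prime) (hf : 0 < f) (hre : e * f ∣ r - 1) (he0 : 0 < e)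
    (hm : ∀ q : ℕ, q.Prime → e + 1 ≤ q → ¬ q ∣ m) : ¬ r ∣ m * f := by
  intro h
  have h1 := lt_of_dvd_pred hr hre
  have h2 : f ≤ e * f := Nat.le_mul_of_pos_left f he0
  have h3 : e * 1 ≤ e * f := Nat.mul_le_mul_left _ hf
  rcases hr.dvd_mul.1 h with h4 | h4
  · exact hm r hr (by omega) h4
  · have := Nat.le_of_dvd hf h4
    omega

/-- the two large exponents -/
theorem Key.pair' {n p M f N j j' : ℕ} (K : Key n p M) (hn0 : n ≠ 0) (hf : 0 < f) (hM : M ≤ f * N)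
    (h : Has n p (j * f)) (h' : Has n p (j' * f)) (j0 : 0 < j) (j0' : 0 < j') (hne : j ≠ j')
    (c1 : N ≤ j * j' + j + j') (c2 : N < (j + 1) * j') (c3 : N < (j' + 1) * j)
    (hnd : ∀ q : ℕ, q.Prime → j * f + 1 ≤ q → ¬ q ∣ j') (hnd' : ∀ q : ℕ, q.Prime → j' * f + 1 ≤ q → ¬ q ∣ j) :
    f * Nat.lcm j j' ∣ M := by
  obtain ⟨r, hr, h1, h2, h3⟩ := K.has h hn0
  obtain ⟨r', hr', h1', h2', h3'⟩ := K.has h' hn0
  have hrr : r ≠ r' := ne_of_ord h1 h1' (fun h => hne (Nat.eq_of_mul_eq_mul_right hf h))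
  have a1 := lt_of_dvd_pred hr h2
  have a2 := lt_of_dvd_pred hr' h2'
  exact TF.two hf K.pos hM hr hr' hrr h2 h2' h3 h3' j0 j0' c1 c2 c3 (hnd r hr a1) (hnd' r' hr' a2)

theorem Key.pair {n p M f N j j' : ℕ} (K : Key n p M) (hn0 : n ≠ 0) (hf : 0 < f) (hM : M ≤ f * N)
    (h : Has n p (j * f)) (h' : Has n p (j' * f)) (j0 : 0 < j) (j0' : 0 < j') (hne : j ≠ j')
    (c1 : N ≤ j * j' + j + j') (c2 : N < (j + 1) * j') (c3 : N < (j' + 1) * j)
    (hnd : ∀ q : ℕ, q.Prime → j + 1 ≤ q → ¬ q ∣ j') (hnd' : ∀ q : ℕ, q.Prime → j' + 1 ≤ q → ¬ q ∣ j) :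
    f * Nat.lcm j j' ∣ M := by
  have a3 : j * 1 ≤ j * f := Nat.mul_le_mul_left _ hf
  have a4 : j' * 1 ≤ j' * f := Nat.mul_le_mul_left _ hf
  exact K.pair' hn0 hf hM h h' j0 j0' hne c1 c2 c3 (fun q hq h => hnd q hq (by omega))
    (fun q hq h => hnd' q hq (by omega))

/-- `M = f N` and a further exponent -/
theorem Key.last {n p M f N j : ℕ} (K : Key n p M) (hn0 : n ≠ 0) (hf : 0 < f) (hM : M = f * N)
    (h : Has n p (j * f)) (j0 : 0 < j) (hj : ¬ j ∣ N) (hnd : ∀ q : ℕ, q.Prime → j + 1 ≤ q → ¬ q ∣ N) : False := by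
  obtain ⟨r, hr, h1, h2, h3⟩ := K.has h hn0
  rcases h3 with h3 | h3
  · rw [hM, mul_comm] at h3
    exact r_not_dvd hr hf h2 j0 hnd h3
  · rw [hM, mul_comm f N] at h3
    exact hj (Nat.dvd_of_mul_dvd_mul_right hf h3)

theorem eq_of_lcm {M f N : ℕ} (h : f * N ∣ M) (h0 : 0 < M) (hM : M ≤ f * N) : M = f * N :=
  le_antisymm hM (Nat.le_of_dvd h0 h)

/-- `Has` from a factor `p ^ e - 1` -/
theorem has_fac {n p e : ℕ} {d g : ℕ} (hp : p.Prime) (he : 3 ≤ e) (h26 : ¬ (p = 2 ∧ e = 6))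
    (hdvd : p ^ e - 1 ∣ d * n) (hd : d ∣ p ^ g - 1) (hg : ¬ e ∣ g) : Has n p e := by
  refine has_of (d := d) (g := g) hp (by omega) (by omega) h26 ?_ ?_ hg
  · intro r hr h1
    exact ((h1 e).2 dvd_rfl).trans hdvd
  · intro r hr h
    exact Or.inl (h.trans hd)

/-- `Has` from a factor `p ^ e + 1` -/
theorem has_fac_add {n p e : ℕ} {d g : ℕ} (hp : p.Prime) (he : 2 ≤ e) (h26 : ¬ (p = 2 ∧ e = 3))
    (hdvd : p ^ e + 1 ∣ d * n) (hd : d ∣ p ^ g - 1) (hg : ¬ 2 * e ∣ g) : Has n p (2 * e) := by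
  refine has_of (d := d) (g := g) hp (by omega) (by omega) (by omega) ?_ ?_ hg
  · intro r hr h1
    exact (dvd_add hp (by omega) hr h1).trans hdvd
  · intro r hr h
    exact Or.inl (h.trans hd)

/-- `E₈(q)` -/
theorem not_e8 {p f n M : ℕ} (hp : p.Prime) (hf : 0 < f) (hn0 : n ≠ 0)
    (hn : n = (p ^ f) ^ 120 * (((p ^ f) ^ 2 - 1) * ((p ^ f) ^ 8 - 1) * ((p ^ f) ^ 12 - 1) * ((p ^ f) ^ 14 - 1) *
      ((p ^ f) ^ 18 - 1) * ((p ^ f) ^ 20 - 1) * ((p ^ f) ^ 24 - 1) * ((p ^ f) ^ 30 - 1))) (K : Key n p M) : False := by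
  simp only [← pow_mul] at hn
  have hM : M ≤ f * 120 := by
    refine K.le_of hn0 hp (d := 1) (by rw [one_mul, hn]) ?_
    repeat' apply not_dvd_mul hp
    all_goals exact not_dvd_sub hp (by positivity)
  have has : ∀ j, 3 ≤ j → ¬ (p = 2 ∧ j * f = 6) → p ^ (f * j) - 1 ∣ n → Has n p (j * f) := by
    intro j hj h6 h
    refine has_fac (d := 1) (g := 1) hp (by nlinarith) h6 (by rwa [one_mul, mul_comm]) (one_dvd _) ?_
    intro h
    have := Nat.le_of_dvd one_pos h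
    nlinarith
  have h30 : Has n p (30 * f) := has 30 (by norm_num) (by omega) (by
    rw [hn]
    exact Dvd.dvd.mul_left (Dvd.intro_left _ rfl) _)
  have h24 : Has n p (24 * f) := has 24 (by norm_num) (by omega) (by
    rw [hn]
    exact Dvd.dvd.mul_left (Dvd.dvd.mul_right (Dvd.intro_left _ rfl) _) _)
  have h14 : Has n p (14 * f) := has 14 (by norm_num) (by omega) (by
    rw [hn]
    exact Dvd.dvd.mul_left (Dvd.dvd.mul_right (Dvd.dvd.mul_right (Dvd.dvd.mul_right (Dvd.dvd.mul_right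
      (Dvd.intro_left _ rfl) _) _) _) _) _)
  have h1 := K.pair hn0 hf hM h30 h24 (by norm_num) (by norm_num) (by norm_num) (by norm_num) (by norm_num)
    (by norm_num) (by
      intro q hq h1 h2
      have := Nat.le_of_dvd (by norm_num) h2
      omega) (by
      intro q hq h1 h2
      have := Nat.le_of_dvd (by norm_num) h2
      interval_cases q <;> first | omega | exact absurd hq (by norm_num))
  have h2 := eq_of_lcm (N := 120) h1 K.pos hM
  refine K.last hn0 hf h2 h14 (by norm_num) (by norm_num) ?_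
  intro q hq h1 h2
  have h3 : q ∣ 2 ^ 3 * 15 := h2
  have := Nat.le_of_dvd (by norm_num) h2
  interval_cases q <;> first | omega | exact absurd hq (by norm_num)

/-- a primitive prime of multiplicity two dividing `M` -/
theorem Key.exists_mult {n p M e d X Y g : ℕ} (K : Key n p M) (hn0 : n ≠ 0) (hp : p.Prime) (he : 3 ≤ e)
    (h26 : ¬ (p = 2 ∧ e = 6))
    (hX : ∀ r v : ℕ, r.Prime → (∀ m, r ∣ p ^ m - 1 ↔ e ∣ m) → r ^ v ∣ p ^ e - 1 → r ^ v ∣ X)
    (hY : ∀ r v : ℕ, r.Prime → (∀ m, r ∣ p ^ m - 1 ↔ e ∣ m) → r ^ v ∣ p ^ e - 1 → r ^ v ∣ Y)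
    (hXY : X * Y ∣ d * n) (hd : ∀ r : ℕ, r.Prime → r ∣ d → r ∣ p ^ g - 1 ∨ r = 2) (hg : ¬ e ∣ g) :
    ∃ r : ℕ, r.Prime ∧ e ∣ r - 1 ∧ r ∣ M := by
  obtain ⟨r, hr, h1, h2, h3⟩ := Lib.Zsigmondy.exists_primitive hp.two_le (by omega : 2 ≤ e) (by omega) h26
  refine ⟨r, hr, h2, K.mult hn0 hp (by omega) hr h1 (fun h => h3 (by rw [h])) (hX r · hr h1) (hY r · hr h1) hXY ?_⟩
  intro h
  rcases hd r hr h with h4 | h4
  · exact hg ((h1 g).1 h4)
  · have := lt_of_dvd_pred hr h2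
    omega

theorem Key.last2 {n p M f N j d X Y g : ℕ} (K : Key n p M) (hn0 : n ≠ 0) (hp : p.Prime) (hf : 0 < f)
    (hM : M = f * N) (he : 3 ≤ j * f) (h26 : ¬ (p = 2 ∧ j * f = 6))
    (hX : ∀ r v : ℕ, r.Prime → (∀ m, r ∣ p ^ m - 1 ↔ j * f ∣ m) → r ^ v ∣ p ^ (j * f) - 1 → r ^ v ∣ X)
    (hY : ∀ r v : ℕ, r.Prime → (∀ m, r ∣ p ^ m - 1 ↔ j * f ∣ m) → r ^ v ∣ p ^ (j * f) - 1 → r ^ v ∣ Y)
    (hXY : X * Y ∣ d * n) (hd : d ∣ p ^ g - 1) (hg : ¬ j * f ∣ g)
    (hnd : ∀ q : ℕ, q.Prime → j + 1 ≤ q → ¬ q ∣ N) : False := by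
  obtain ⟨r, hr, h2, h3⟩ := K.exists_mult hn0 hp he h26 hX hY hXY (fun r _ h => Or.inl (h.trans hd)) hg
  rw [hM, mul_comm] at h3
  have j0 : 0 < j := by
    rcases Nat.eq_zero_or_pos j with h | h
    · rw [h] at he
      omega
    · exact h
  exact r_not_dvd hr hf h2 j0 hnd h3

theorem not_dvd_of_lt {j f : ℕ} (hf : 0 < f) (hj : 2 ≤ j) : ¬ j * f ∣ f := by
  intro h
  have := Nat.le_of_dvd hf h
  nlinarith

theorem not_dvd_of_lt2 {j f : ℕ} (hf : 0 < f) (hj : 3 ≤ j) : ¬ j * f ∣ 2 * f := by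
  intro h
  have := Nat.le_of_dvd (by omega) h
  nlinarith

/-- `E₇(q)` -/
theorem not_e7 {p f n M : ℕ} (hp : p.Prime) (hf : 0 < f) (hn0 : n ≠ 0)
    (hn : Nat.gcd 2 (p ^ f - 1) * n = (p ^ f) ^ 63 * (((p ^ f) ^ 2 - 1) * ((p ^ f) ^ 6 - 1) * ((p ^ f) ^ 8 - 1) *
      ((p ^ f) ^ 10 - 1) * ((p ^ f) ^ 12 - 1) * ((p ^ f) ^ 14 - 1) * ((p ^ f) ^ 18 - 1))) (K : Key n p M) :
    False := by
  simp only [← pow_mul] at hn
  have hM : M ≤ f * 63 := by
    refine K.le_of hn0 hp hn ?_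
    repeat' apply not_dvd_mul hp
    all_goals exact not_dvd_sub hp (by positivity)
  have h18 : Has n p (18 * f) := has_fac hp (by omega) (by omega) (by
    rw [hn, mul_comm 18 f]
    exact Dvd.dvd.mul_left (Dvd.intro_left _ rfl) _) (Nat.gcd_dvd_right _ _) (not_dvd_of_lt hf (by norm_num))
  have h14 : Has n p (14 * f) := has_fac hp (by omega) (by omega) (by
    rw [hn, mul_comm 14 f]
    exact Dvd.dvd.mul_left (Dvd.dvd.mul_right (Dvd.intro_left _ rfl) _) _) (Nat.gcd_dvd_right _ _)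
    (not_dvd_of_lt hf (by norm_num))
  have h1 := K.pair hn0 hf hM h18 h14 (by norm_num) (by norm_num) (by norm_num) (by norm_num) (by norm_num)
    (by norm_num) (by
      intro q hq h1 h2
      have := Nat.le_of_dvd (by norm_num) h2
      omega) (by
      intro q hq h1 h2
      have := Nat.le_of_dvd (by norm_num) h2
      interval_cases q <;> first | omega | exact absurd hq (by norm_num))
  have h2 : f * 126 ∣ M := h1
  have := Nat.le_of_dvd K.pos h2
  omega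

/-- `E₆(q)` -/
theorem not_e6 {p f n M : ℕ} (hp : p.Prime) (hf : 0 < f) (hn0 : n ≠ 0)
    (hn : Nat.gcd 3 (p ^ f - 1) * n = (p ^ f) ^ 36 * (((p ^ f) ^ 2 - 1) * ((p ^ f) ^ 5 - 1) * ((p ^ f) ^ 6 - 1) *
      ((p ^ f) ^ 8 - 1) * ((p ^ f) ^ 9 - 1) * ((p ^ f) ^ 12 - 1))) (K : Key n p M) :
    False := by
  simp only [← pow_mul] at hn
  have hM : M ≤ f * 36 := by
    refine K.le_of hn0 hp hn ?_
    repeat' apply not_dvd_mul hp
    all_goals exact not_dvd_sub hp (by positivity)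
  have h12 : Has n p (12 * f) := has_fac hp (by omega) (by omega) (by
    rw [hn, mul_comm 12 f]
    exact Dvd.dvd.mul_left (Dvd.intro_left _ rfl) _) (Nat.gcd_dvd_right _ _) (not_dvd_of_lt hf (by norm_num))
  have h9 : Has n p (9 * f) := has_fac hp (by omega) (by omega) (by
    rw [hn, mul_comm 9 f]
    exact Dvd.dvd.mul_left (Dvd.dvd.mul_right (Dvd.intro_left _ rfl) _) _) (Nat.gcd_dvd_right _ _)
    (not_dvd_of_lt hf (by norm_num))
  have h1 := K.pair hn0 hf hM h12 h9 (by norm_num) (by norm_num) (by norm_num) (by norm_num) (by norm_num)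
    (by norm_num) (by
      intro q hq h1 h2
      have := Nat.le_of_dvd (by norm_num) h2
      omega) (by
      intro q hq h1 h2
      have := Nat.le_of_dvd (by norm_num) h2
      interval_cases q <;> first | omega | exact absurd hq (by norm_num))
  have h2 := eq_of_lcm (N := 36) h1 K.pos hM
  refine K.last2 (j := 4) (d := Nat.gcd 3 (p ^ f - 1)) (g := f) hn0 hp hf h2 (by omega) (by omega) (X := p ^ (f * 8) - 1)
    (Y := p ^ (f * 12) - 1) ?_ ?_ ?_ (Nat.gcd_dvd_right _ _) (not_dvd_of_lt hf (by norm_num)) ?_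
  · intro r v _ _ h
    exact h.trans (pow_sub_dvd p _ _ ⟨2, by ring⟩)
  · intro r v _ _ h
    exact h.trans (pow_sub_dvd p _ _ ⟨3, by ring⟩)
  · rw [hn]
    exact ⟨p ^ (f * 36) * ((p ^ (f * 2) - 1) * (p ^ (f * 5) - 1) * (p ^ (f * 6) - 1) * (p ^ (f * 9) - 1)), by ring⟩
  · intro q hq h1 h2
    have := Nat.le_of_dvd (by norm_num) h2
    interval_cases q <;> first | omega | exact absurd hq (by norm_num)

/-- `²E₆(q)` -/
theorem not_te6 {p f n M : ℕ} (hp : p.Prime) (hf : 0 < f) (hn0 : n ≠ 0)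
    (hn : Nat.gcd 3 (p ^ f + 1) * n = (p ^ f) ^ 36 * (((p ^ f) ^ 2 - 1) * ((p ^ f) ^ 5 + 1) * ((p ^ f) ^ 6 - 1) *
      ((p ^ f) ^ 8 - 1) * ((p ^ f) ^ 9 + 1) * ((p ^ f) ^ 12 - 1))) (K : Key n p M) :
    False := by
  have hg : Nat.gcd 3 (p ^ f + 1) ∣ p ^ (2 * f) - 1 := by
    refine (Nat.gcd_dvd_right _ _).trans ?_
    have h2 : p ^ (2 * f) - 1 = (p ^ f + 1) * (p ^ f - 1) := by
      rw [← Nat.sq_sub_sq, one_pow, ← pow_mul, mul_comm f 2]
    rw [h2]
    exact Dvd.intro _ rfl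
  simp only [← pow_mul] at hn
  have hM : M ≤ f * 36 := by
    refine K.le_of hn0 hp hn ?_
    repeat' apply not_dvd_mul hp
    all_goals first | exact not_dvd_sub hp (by positivity) | exact not_dvd_add hp (by positivity)
  have h18 : Has n p (18 * f) := by
    have := has_fac_add (e := 9 * f) (d := Nat.gcd 3 (p ^ f + 1)) (n := n) hp (by omega) (by omega) (by
      rw [hn, mul_comm 9 f]
      exact Dvd.dvd.mul_left (Dvd.dvd.mul_right (Dvd.intro_left _ rfl) _) _) hg (by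
      rw [← mul_assoc]
      exact not_dvd_of_lt2 hf (by norm_num))
    rwa [← mul_assoc] at this
  have h12 : Has n p (12 * f) := has_fac hp (by omega) (by omega) (by
    rw [hn, mul_comm 12 f]
    exact Dvd.dvd.mul_left (Dvd.intro_left _ rfl) _) hg (not_dvd_of_lt2 hf (by norm_num))
  have h1 := K.pair hn0 hf hM h18 h12 (by norm_num) (by norm_num) (by norm_num) (by norm_num) (by norm_num)
    (by norm_num) (by
      intro q hq h1 h2
      have := Nat.le_of_dvd (by norm_num) h2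
      omega) (by
      intro q hq h1 h2
      have := Nat.le_of_dvd (by norm_num) h2
      interval_cases q <;> first | omega | exact absurd hq (by norm_num))
  have h2 := eq_of_lcm (N := 36) h1 K.pos hM
  refine K.last2 (j := 4) (d := Nat.gcd 3 (p ^ f + 1)) hn0 hp hf h2 (by omega) (by omega) (X := p ^ (f * 8) - 1)
    (Y := p ^ (f * 12) - 1) ?_ ?_ ?_ hg (not_dvd_of_lt2 hf (by norm_num)) ?_
  · intro r v _ _ h
    exact h.trans (pow_sub_dvd p _ _ ⟨2, by ring⟩)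
  · intro r v _ _ h
    exact h.trans (pow_sub_dvd p _ _ ⟨3, by ring⟩)
  · rw [hn]
    exact ⟨p ^ (f * 36) * ((p ^ (f * 2) - 1) * (p ^ (f * 5) + 1) * (p ^ (f * 6) - 1) * (p ^ (f * 9) + 1)), by ring⟩
  · intro q hq h1 h2
    have := Nat.le_of_dvd (by norm_num) h2
    interval_cases q <;> first | omega | exact absurd hq (by norm_num)

/-- `F₄(q)` -/
theorem not_f4 {p f n M : ℕ} (hp : p.Prime) (hf : 0 < f) (hn0 : n ≠ 0)
    (hn : n = (p ^ f) ^ 24 * (((p ^ f) ^ 2 - 1) * ((p ^ f) ^ 6 - 1) * ((p ^ f) ^ 8 - 1) * ((p ^ f) ^ 12 - 1)))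
    (K : Key n p M) : False := by
  simp only [← pow_mul] at hn
  have hM : M ≤ f * 24 := by
    refine K.le_of hn0 hp (d := 1) (by rw [one_mul, hn]) ?_
    repeat' apply not_dvd_mul hp
    all_goals exact not_dvd_sub hp (by positivity)
  have h12 : Has n p (12 * f) := has_fac (d := 1) (g := f) hp (by omega) (by omega) (by
    rw [hn, one_mul, mul_comm 12 f]
    exact Dvd.dvd.mul_left (Dvd.intro_left _ rfl) _) (one_dvd _) (not_dvd_of_lt hf (by norm_num))
  have h8 : Has n p (8 * f) := has_fac (d := 1) (g := f) hp (by omega) (by omega) (by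
    rw [hn, one_mul, mul_comm 8 f]
    exact Dvd.dvd.mul_left (Dvd.dvd.mul_right (Dvd.intro_left _ rfl) _) _) (one_dvd _)
    (not_dvd_of_lt hf (by norm_num))
  have h1 := K.pair hn0 hf hM h12 h8 (by norm_num) (by norm_num) (by norm_num) (by norm_num) (by norm_num)
    (by norm_num) (by
      intro q hq h1 h2
      have := Nat.le_of_dvd (by norm_num) h2
      omega) (by
      intro q hq h1 h2
      have := Nat.le_of_dvd (by norm_num) h2
      interval_cases q <;> first | omega | exact absurd hq (by norm_num))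
  have h2 := eq_of_lcm (N := 24) h1 K.pos hM
  refine K.last2 (j := 4) (d := 1) (g := f) hn0 hp hf h2 (by omega) (by omega) (X := p ^ (f * 8) - 1)
    (Y := p ^ (f * 12) - 1) ?_ ?_ ?_ (one_dvd _) (not_dvd_of_lt hf (by norm_num)) ?_
  · intro r v _ _ h
    exact h.trans (pow_sub_dvd p _ _ ⟨2, by ring⟩)
  · intro r v _ _ h
    exact h.trans (pow_sub_dvd p _ _ ⟨3, by ring⟩)
  · rw [hn, one_mul]
    exact ⟨p ^ (f * 24) * ((p ^ (f * 2) - 1) * (p ^ (f * 6) - 1)), by ring⟩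
  · intro q hq h1 h2
    have := Nat.le_of_dvd (by norm_num) h2
    interval_cases q <;> first | omega | exact absurd hq (by norm_num)

theorem not_dvd_of_ord {p e r g : ℕ} (h : ∀ m, r ∣ p ^ m - 1 ↔ e ∣ m) (h0 : 0 < g) (hg : g < e) :
    ¬ r ∣ p ^ g - 1 := by
  rw [h]
  intro h1
  have := Nat.le_of_dvd h0 h1
  omega

theorem pow_dvd_of_mul {r v a b : ℕ} (hr : r.Prime) (h : r ^ v ∣ a * b) (ha : ¬ r ∣ a) : r ^ v ∣ b :=
  (Nat.Coprime.pow_left _ ((hr.coprime_iff_not_dvd).2 ha)).dvd_of_dvd_mul_left h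

theorem sq_sub (x : ℕ) : x ^ 2 - 1 = (x - 1) * (x + 1) := by
  rw [mul_comm, ← Nat.sq_sub_sq, one_pow]

/-- `²F₄(q)` -/
theorem not_tf4 {p f n M : ℕ} (hp : p.Prime) (hf : 0 < f) (hn0 : n ≠ 0)
    (hn : n = (p ^ f) ^ 12 * ((p ^ f - 1) * ((p ^ f) ^ 3 + 1) * ((p ^ f) ^ 4 - 1) * ((p ^ f) ^ 6 + 1)))
    (K : Key n p M) : False := by
  have e6 : ∀ x : ℕ, x ^ 6 + 1 = (x ^ 2 + 1) * (x ^ 2 * x ^ 2 - x ^ 2 + 1) := by
    intro x
    have h1 : x ^ 2 ≤ x ^ 2 * x ^ 2 := by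
      rcases Nat.eq_zero_or_pos x with h | h
      · rw [h]
        norm_num
      · exact Nat.le_mul_of_pos_left _ (pow_pos h 2)
    zify [h1]
    ring
  have hM : M ≤ f * 12 := by
    simp only [← pow_mul] at hn
    refine K.le_of hn0 hp (d := 1) (by rw [one_mul, hn]) ?_
    repeat' apply not_dvd_mul hp
    all_goals first | exact not_dvd_sub hp (by positivity) | exact not_dvd_add hp (by positivity)
  have h12 : Has n p (12 * f) := by
    have := has_fac_add (e := 6 * f) (d := 1) (g := f) (n := n) hp (by omega) (by omega) (by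
      rw [hn, one_mul, mul_comm 6 f, pow_mul]
      exact Dvd.dvd.mul_left (Dvd.intro_left _ rfl) _) (one_dvd _) (by
      rw [← mul_assoc]
      exact not_dvd_of_lt hf (by norm_num))
    rwa [← mul_assoc] at this
  have h2 : M = f * 12 := by
    have := K.big hn0 h12 (by omega)
    omega
  refine K.last2 (j := 4) (d := 1) (g := f) hn0 hp hf h2 (by omega) (by omega) (X := (p ^ f) ^ 4 - 1)
    (Y := (p ^ f) ^ 6 + 1) ?_ ?_ ?_ (one_dvd _) (not_dvd_of_lt hf (by norm_num)) ?_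
  · intro r v _ _ h
    rwa [mul_comm, pow_mul] at h
  · intro r v hr h1 h
    rw [mul_comm, pow_mul, show (p ^ f) ^ 4 = ((p ^ f) ^ 2) ^ 2 by ring, sq_sub] at h
    rw [e6]
    refine Dvd.dvd.mul_right (pow_dvd_of_mul hr h ?_) _
    rw [← pow_mul]
    exact not_dvd_of_ord h1 (by positivity) (by omega)
  · rw [hn, one_mul]
    exact ⟨(p ^ f) ^ 12 * ((p ^ f - 1) * ((p ^ f) ^ 3 + 1)), by ring⟩
  · intro q hq h1 h2
    have := Nat.le_of_dvd (by norm_num) h2
    interval_cases q <;> first | omega | exact absurd hq (by norm_num)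

/-- `³D₄(q)` -/
theorem not_td4 {p f n M : ℕ} (hp : p.Prime) (hf : 0 < f) (hn0 : n ≠ 0)
    (hn : n = (p ^ f) ^ 12 * (((p ^ f) ^ 2 - 1) * ((p ^ f) ^ 6 - 1) * ((p ^ f) ^ 8 + (p ^ f) ^ 4 + 1)))
    (K : Key n p M) : False := by
  have hq1 : 1 < p ^ f := Nat.one_lt_pow hf.ne' hp.one_lt
  have e8 : ∀ x : ℕ, 1 ≤ x → x ^ 12 - 1 = (x ^ 4 - 1) * (x ^ 8 + x ^ 4 + 1) := by
    intro x hx
    have h1 : 1 ≤ x ^ 4 := Nat.one_le_pow _ _ hx
    have h2 : 1 ≤ x ^ 12 := Nat.one_le_pow _ _ hx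
    zify [h1, h2]
    ring
  have e6 : ∀ x : ℕ, 1 ≤ x → x ^ 6 - 1 = (x ^ 3 - 1) * (x + 1) * (x ^ 2 - x + 1) := by
    intro x hx
    have h1 : 1 ≤ x ^ 3 := Nat.one_le_pow _ _ hx
    have h2 : 1 ≤ x ^ 6 := Nat.one_le_pow _ _ hx
    have h3 : x ≤ x ^ 2 := Nat.le_self_pow (by norm_num) x
    zify [h1, h2, h3]
    ring
  have e84 : ∀ x : ℕ, 1 ≤ x → x ^ 8 + x ^ 4 + 1 = (x ^ 2 - x + 1) * ((x ^ 2 + x + 1) * (x ^ 4 - x ^ 2 + 1)) := by
    intro x hx
    have h3 : x ≤ x ^ 2 := Nat.le_self_pow (by norm_num) x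
    have h4 : x ^ 2 ≤ x ^ 4 := Nat.pow_le_pow_right hx (by norm_num)
    zify [h3, h4]
    ring
  have hpX : ¬ p ∣ (p ^ f) ^ 8 + (p ^ f) ^ 4 + 1 := by
    intro h
    have h1 : p ∣ (p ^ f) ^ 8 + (p ^ f) ^ 4 := _root_.dvd_add (dvd_pow (dvd_pow_self p hf.ne') (by norm_num))
      (dvd_pow (dvd_pow_self p hf.ne') (by norm_num))
    exact hp.one_lt.ne' (Nat.dvd_one.1 ((Nat.dvd_add_right h1).1 h))
  have hM : M ≤ f * 12 := by
    refine K.le_of hn0 hp (d := 1) (by rw [one_mul, hn, pow_mul]) ?_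
    refine not_dvd_mul hp (not_dvd_mul hp ?_ ?_) hpX
    · rw [← pow_mul]
      exact not_dvd_sub hp (by positivity)
    · rw [← pow_mul]
      exact not_dvd_sub hp (by positivity)
  have h12 : Has n p (12 * f) := by
    refine has_of (d := 1) (g := f) hp (by omega) (by omega) (by omega) ?_ ?_ (not_dvd_of_lt hf (by norm_num))
    · intro r hr h1
      have h3 := (h1 (12 * f)).2 dvd_rfl
      rw [mul_comm, pow_mul, e8 _ hq1.le] at h3
      rcases hr.dvd_mul.1 h3 with h4 | h4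
      · rw [← pow_mul] at h4
        exact absurd h4 (not_dvd_of_ord h1 (by positivity) (by omega))
      · rw [hn, one_mul]
        exact Dvd.dvd.mul_left (Dvd.dvd.mul_left h4 _) _
    · intro r hr h
      exact absurd (Nat.dvd_one.1 h) hr.one_lt.ne'
  have h2 : M = f * 12 := by
    have := K.big hn0 h12 (by omega)
    omega
  by_cases hex : p = 2 ∧ 6 * f = 6
  · obtain ⟨rfl, h6⟩ := hex
    obtain rfl : f = 1 := by omega
    have h3 := K.pow (r := 7) (v := 2) hn0 (by norm_num) (by norm_num) (by norm_num) (by rw [hn]; norm_num)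
    rw [h2] at h3
    revert h3
    norm_num
  refine K.last2 (j := 6) (d := 1) (g := f) hn0 hp hf h2 (by omega) hex (X := (p ^ f) ^ 6 - 1)
    (Y := (p ^ f) ^ 8 + (p ^ f) ^ 4 + 1) ?_ ?_ ?_ (one_dvd _) (not_dvd_of_lt hf (by norm_num)) ?_
  · intro r v _ _ h
    rwa [mul_comm, pow_mul] at h
  · intro r v hr h1 h
    rw [mul_comm, pow_mul, e6 _ hq1.le] at h
    rw [e84 _ hq1.le]
    refine Dvd.dvd.mul_right (pow_dvd_of_mul hr h ?_) _
    intro h3
    rcases hr.dvd_mul.1 h3 with h4 | h4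
    · rw [← pow_mul] at h4
      exact absurd h4 (not_dvd_of_ord h1 (by positivity) (by omega))
    · have h5 : r ∣ p ^ (f * 2) - 1 := by
        rw [pow_mul, sq_sub]
        exact h4.mul_left _
      exact absurd h5 (not_dvd_of_ord h1 (by positivity) (by omega))
  · rw [hn, one_mul]
    exact ⟨(p ^ f) ^ 12 * ((p ^ f) ^ 2 - 1), by ring⟩
  · intro q hq h1 h2
    have := Nat.le_of_dvd (by norm_num) h2
    interval_cases q <;> first | omega | exact absurd hq (by norm_num)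

/-- `G₂(q)`, `q ≥ 3` -/
theorem not_g2 {p f n M a : ℕ} (hp : p.Prime) (hf : 0 < f) (hn0 : n ≠ 0) (h3 : 3 ≤ p ^ f)
    (hn : n = (p ^ f) ^ 6 * (((p ^ f) ^ 2 - 1) * ((p ^ f) ^ 6 - 1)))
    (K : Key n p M) (K2 : Key n 2 a) : False := by
  have hM : M ≤ f * 6 := by
    simp only [← pow_mul] at hn
    refine K.le_of hn0 hp (d := 1) (by rw [one_mul, hn]) ?_
    repeat' apply not_dvd_mul hp
    all_goals exact not_dvd_sub hp (by positivity)
  have h26 : ¬ (p = 2 ∧ 6 * f = 6) := by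
    rintro ⟨rfl, h⟩
    obtain rfl : f = 1 := by omega
    omega
  have h6 : Has n p (6 * f) := has_fac (d := 1) (g := f) hp (by omega) h26 (by
    rw [hn, one_mul, mul_comm 6 f, pow_mul]
    exact Dvd.dvd.mul_left (Dvd.intro_left _ rfl) _) (one_dvd _) (not_dvd_of_lt hf (by norm_num))
  have h2 : M = 6 * f := K.big hn0 h6 (by omega)
  rcases Nat.lt_or_ge 1 f with hf1 | hf1
  · by_cases hex : p = 2 ∧ 2 * f = 6
    · obtain ⟨rfl, h6⟩ := hex
      obtain rfl : f = 3 := by omega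
      have h3 := K.pow (r := 7) (v := 2) hn0 (by norm_num) (by norm_num) (by norm_num) (by rw [hn]; norm_num)
      rw [h2] at h3
      revert h3
      norm_num
    · obtain ⟨r, hr, h4, h5⟩ := K.exists_mult (e := 2 * f) (d := 1) (g := 1) (X := (p ^ f) ^ 2 - 1)
        (Y := (p ^ f) ^ 6 - 1) hn0 hp (by omega) hex (by
          intro r v _ _ h
          rwa [mul_comm, pow_mul] at h) (by
          intro r v _ _ h
          refine h.trans ?_
          rw [← pow_mul]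
          exact pow_sub_dvd p _ _ ⟨3, by ring⟩) (by
          rw [hn, one_mul]
          exact Dvd.intro_left _ rfl) (fun r _ h => Or.inl (h.trans (one_dvd _))) (by
          intro h
          have := Nat.le_of_dvd one_pos h
          omega)
      have h7 := lt_of_dvd_pred hr h4
      rw [h2] at h5
      rcases hr.dvd_mul.1 h5 with h8 | h8
      · have h9 := Nat.le_of_dvd (by norm_num) h8
        obtain rfl : f = 2 := by omega
        interval_cases r <;> first | omega | exact absurd hr (by norm_num)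
      · have h9 := Nat.le_of_dvd hf h8
        omega
  · obtain rfl : f = 1 := by omega
    have h4 := K.dvd
    rw [h2] at h4
    have h5 := Nat.le_of_dvd (by norm_num) h4
    rw [pow_one] at h3 hn
    have h7 : p = 3 := by
      interval_cases p
      · rfl
      · exact absurd hp (by norm_num)
      · omega
      · exact absurd hp (by norm_num)
    subst h7
    have h8 : a ≤ 6 := by
      have h9 : 1 * n = 2 ^ 6 * 66339 := by rw [hn]; norm_num
      exact K2.le.trans (fac_le Nat.prime_two h9 (by norm_num) hn0)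
    have h10 := K2.weak (r := 13) hn0 (by norm_num) (by norm_num) (by rw [hn]; norm_num)
    have h11 := K2.pos
    interval_cases a <;> revert h10 <;> norm_num

end Cfsg.Agent.H702.TF
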