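import Mathlib
import Cfsg.Agent.H702.ExcFam

/-!
# The classical families have no `Key` (helper702)
-/

set_option autoImplicit false

namespace Cfsg.Agent.H702.TF

open Finset

theorem tri (l : ℕ) : 2 * (l * (l - 1) / 2) = l * (l - 1) := by
  have h : 2 ∣ l * (l - 1) := even_iff_two_dvd.1 (Nat.even_mul_pred_self l)
  omega

/-! ### `PSL` -/

theorem gl_prod (q l : ℕ) (hq : 1 ≤ q) :
    ∏ i ∈ range l, (q ^ l - q ^ i) = q ^ (l * (l - 1) / 2) * ∏ i ∈ range l, (q ^ (i + 1) - 1) := by
  rw [← Finset.prod_range_reflect (fun i => q ^ (i + 1) - 1), ← Finset.sum_range_id, ← Finset.prod_pow_eq_pow_sum,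
    ← Finset.prod_mul_distrib]
  refine Finset.prod_congr rfl fun i hi => ?_
  rw [Finset.mem_range] at hi
  rw [Nat.mul_sub, ← pow_add, mul_one]
  congr 2
  omega

theorem not_dvd_prod {p : ℕ} (hp : p.Prime) (s : Finset ℕ) (g : ℕ → ℕ) (h : ∀ i ∈ s, ¬ p ∣ g i) :
    ¬ p ∣ ∏ i ∈ s, g i := by
  rw [hp.prime.dvd_finsetProd_iff]
  push Not
  exact h

theorem psl_M {p f l d n M : ℕ} (hp : p.Prime) (hf : 0 < f) (hn0 : n ≠ 0)
    (hn : d * n = ∏ i ∈ range l, ((p ^ f) ^ l - (p ^ f) ^ i)) (K : Key n p M) : M ≤ f * (l * (l - 1) / 2) := by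
  rw [gl_prod _ _ (Nat.one_le_pow _ _ hp.pos), ← pow_mul] at hn
  refine K.le_of hn0 hp hn ?_
  apply not_dvd_prod hp
  intro i _
  rw [← pow_mul]
  exact not_dvd_sub hp (by positivity)

theorem psl_has {p f l n j : ℕ} (hp : p.Prime) (hf : 0 < f)
    (hn : (Nat.gcd l (p ^ f - 1) * (p ^ f - 1)) * n = ∏ i ∈ range l, ((p ^ f) ^ l - (p ^ f) ^ i)) (hj : 2 ≤ j)
    (hjl : j ≤ l) (hex : 3 ≤ j * f) (h26 : ¬ (p = 2 ∧ j * f = 6)) : Has n p (j * f) := by
  refine has_of (d := Nat.gcd l (p ^ f - 1) * (p ^ f - 1)) (g := f) hp (by omega) (by omega) h26 ?_ ?_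
    (not_dvd_of_lt hf hj)
  · intro r hr h1
    rw [hn]
    have h2 : (p ^ f) ^ l - (p ^ f) ^ (l - j) ∣ ∏ i ∈ range l, ((p ^ f) ^ l - (p ^ f) ^ i) :=
      Finset.dvd_prod_of_mem _ (Finset.mem_range.2 (by omega))
    refine Dvd.dvd.trans ?_ h2
    have h3 : (p ^ f) ^ l - (p ^ f) ^ (l - j) = (p ^ f) ^ (l - j) * (p ^ (j * f) - 1) := by
      rw [Nat.mul_sub, mul_one, mul_comm j f, pow_mul p f j, ← pow_add]
      congr 2
      omega
    rw [h3]
    exact ((h1 _).2 dvd_rfl).mul_left _
  · intro r hr h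
    left
    rcases hr.dvd_mul.1 h with h2 | h2
    · exact h2.trans (Nat.gcd_dvd_right _ _)
    · exact h2

theorem not_psl_two {p f n M : ℕ} (hp : p.Prime) (hf : 0 < f) (hn0 : n ≠ 0)
    (hn : (Nat.gcd 2 (p ^ f - 1) * (p ^ f - 1)) * n = ∏ i ∈ range 2, ((p ^ f) ^ 2 - (p ^ f) ^ i)) (K : Key n p M) :
    False := by
  have hM := psl_M hp hf hn0 hn K
  have h2 := Nat.le_of_dvd K.pos K.two
  have hMf : M ≤ f := by simpa using hM
  by_cases hex : p = 2 ∧ 2 * f = 6
  · obtain ⟨rfl, h6⟩ := hex
    obtain rfl : f = 3 := by omega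
    norm_num [Finset.prod_range_succ] at hn
    have hn' : n = 504 := by omega
    subst hn'
    have h7 := K.weak (r := 7) hn0 (by norm_num) (by norm_num) (by norm_num)
    have h3 := K.two
    interval_cases M <;> revert h7 <;> norm_num
    omega
  · have h3 := K.big hn0 (psl_has hp hf hn le_rfl le_rfl (by omega) hex) (by omega)
    omega

theorem not_psl_three {p f n M : ℕ} (hp : p.Prime) (hf : 0 < f) (hn0 : n ≠ 0)
    (hn : (Nat.gcd 3 (p ^ f - 1) * (p ^ f - 1)) * n = ∏ i ∈ range 3, ((p ^ f) ^ 3 - (p ^ f) ^ i)) (K : Key n p M) :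
    False := by
  have hM := psl_M hp hf hn0 hn K
  have h2 := Nat.le_of_dvd K.pos K.two
  have hMf : M ≤ f * 3 := by simpa using hM
  have h4 := K.two
  by_cases hf1 : f = 1
  · subst hf1
    have hM2 : M = 2 := by omega
    subst hM2
    obtain rfl : p = 2 := (Nat.prime_dvd_prime_iff_eq hp Nat.prime_two).1 K.dvd
    norm_num [Finset.prod_range_succ] at hn
    have hn' : n = 168 := by omega
    subst hn'
    have h7 := K.weak (r := 7) hn0 (by norm_num) (by norm_num) (by norm_num)
    revert h7
    norm_num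
  by_cases hex : p = 2 ∧ f = 2
  · obtain ⟨rfl, rfl⟩ := hex
    norm_num [Finset.prod_range_succ] at hn
    have hn' : n = 20160 := by omega
    subst hn'
    have h7 := K.weak (r := 7) hn0 (by norm_num) (by norm_num) (by norm_num)
    have h5 := K.weak (r := 5) hn0 (by norm_num) (by norm_num) (by norm_num)
    interval_cases M <;> first | omega | (revert h7 h5; norm_num)
  by_cases hex3 : p = 2 ∧ f = 3
  · obtain ⟨rfl, rfl⟩ := hex3
    norm_num [Finset.prod_range_succ] at hn
    have hn' : n = 16482816 := by omega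
    subst hn'
    have h7 := K.weak (r := 73) hn0 (by norm_num) (by norm_num) (by norm_num)
    interval_cases M <;> first | omega | (revert h7; norm_num)
  have h3 := K.big hn0 (psl_has hp hf hn (j := 3) (by norm_num) le_rfl (by omega) (by omega)) (by omega)
  obtain ⟨r, hr, -, h5, h6⟩ := K.has (psl_has hp hf hn (j := 2) le_rfl (by norm_num) (by omega) (by omega)) hn0
  have h7 := lt_of_dvd_pred hr h5
  rw [h3] at h6
  rcases h6 with h6 | h6
  · rcases hr.dvd_mul.1 h6 with h8 | h8
    · have := Nat.le_of_dvd (by norm_num) h8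
      omega
    · have := Nat.le_of_dvd hf h8
      omega
  · have := Nat.dvd_of_mul_dvd_mul_right hf h6
    omega

/-- `PSL_l(q)` -/
theorem not_psl {p f l n M : ℕ} (hp : p.Prime) (hf : 0 < f) (hn0 : n ≠ 0) (hl : 2 ≤ l)
    (hn : (Nat.gcd l (p ^ f - 1) * (p ^ f - 1)) * n = ∏ i ∈ range l, ((p ^ f) ^ l - (p ^ f) ^ i)) (K : Key n p M) :
    False := by
  rcases Nat.lt_or_ge l 4 with hl4 | hl4
  · interval_cases l
    · exact not_psl_two hp hf hn0 hn K
    · exact not_psl_three hp hf hn0 hn K
  have hM := psl_M hp hf hn0 hn K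
  have ht := tri l
  set N := l * (l - 1) / 2 with hN
  have hK2 := K.two
  -- exceptions
  by_cases hx1 : p = 2 ∧ l * f = 6
  · obtain ⟨rfl, h6⟩ := hx1
    obtain rfl : f = 1 := by
      rcases Nat.lt_or_ge f 2 with h | h
      · omega
      · nlinarith
    obtain rfl : l = 6 := by omega
    norm_num [Finset.prod_range_succ] at hn
    have hM' : M ≤ 15 := by omega
    have h7 := K.weak (r := 31) hn0 (by norm_num) (by norm_num) (by rw [hn]; norm_num)
    have h5 := K.weak (r := 7) hn0 (by norm_num) (by norm_num) (by rw [hn]; norm_num)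
    have h0 := K.pos
    clear hn hM ht
    interval_cases M <;> first | omega | (revert h7 h5; norm_num)
  by_cases hx2 : p = 2 ∧ (l - 1) * f = 6
  · obtain ⟨rfl, h6⟩ := hx2
    have hf3 : f ≤ 2 := by
      by_contra h
      have : 3 * 3 ≤ (l - 1) * f := Nat.mul_le_mul (by omega) (by omega)
      omega
    interval_cases f
    · obtain rfl : l = 7 := by omega
      norm_num [Finset.prod_range_succ] at hn
      have hM' : M ≤ 21 := by omega
      have h7 := K.weak (r := 127) hn0 (by norm_num) (by norm_num) (by rw [hn]; norm_num)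
      have h5 := K.weak (r := 31) hn0 (by norm_num) (by norm_num) (by rw [hn]; norm_num)
      have h0 := K.pos
      clear hn hM ht
      interval_cases M <;> first | omega | (revert h7 h5; norm_num)
    · obtain rfl : l = 4 := by omega
      norm_num [Finset.prod_range_succ] at hn
      have hn' : n = 987033600 := by omega
      have hM' : M ≤ 12 := by omega
      have h7 := K.weak (r := 17) hn0 (by norm_num) (by norm_num) (by rw [hn']; norm_num)
      have h5 := K.weak (r := 7) hn0 (by norm_num) (by norm_num) (by rw [hn']; norm_num)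
      have h0 := K.pos
      clear hn hM ht
      interval_cases M <;> first | omega | (revert h7 h5; norm_num)
  have hlf : l * 1 ≤ l * f := Nat.mul_le_mul_left _ hf
  have hlf' : (l - 1) * 1 ≤ (l - 1) * f := Nat.mul_le_mul_left _ hf
  have h1 : Has n p (l * f) := psl_has hp hf hn hl le_rfl (by omega) hx1
  have h2 : Has n p ((l - 1) * f) := psl_has hp hf hn (by omega) (by omega) (by omega) hx2
  obtain ⟨m, rfl⟩ : ∃ m, l = m + 1 := ⟨l - 1, by omega⟩
  rw [Nat.add_sub_cancel] at *
  by_cases hcase : (m + 1).Prime ∧ f = 1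
  · obtain ⟨hlp, rfl⟩ := hcase
    rw [one_mul] at hM
    have hm4 : 4 ≤ m := by
      by_contra h
      obtain rfl : m = 3 := by omega
      exact absurd hlp (by norm_num)
    have h3 : Has n p ((m - 1) * 1) := psl_has hp hf hn (by omega) (by omega) (by omega) (by
      rintro ⟨-, h⟩
      obtain rfl : m = 7 := by omega
      exact absurd hlp (by norm_num))
    rw [mul_one] at h1 h2 h3
    obtain ⟨r, hr, o1, a1, b1⟩ := K.has h1 hn0
    obtain ⟨r', hr', o2, a2, b2⟩ := K.has h2 hn0
    obtain ⟨s, hs, o3, a3, b3⟩ := K.has h3 hn0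
    have c1 := lt_of_dvd_pred hr a1
    have c2 := lt_of_dvd_pred hr' a2
    have c3 := lt_of_dvd_pred hs a3
    have hl1 : m + 1 ∣ M := by
      rcases b1 with b1 | b1
      · exfalso
        rcases b2 with b2 | b2
        · have h5 := Nat.le_of_dvd K.pos (((Nat.coprime_primes hr hr').2
            (ne_of_ord o1 o2 (by omega))).mul_dvd_of_dvd_of_dvd b1 b2)
          have h6 : (m + 2) * (m + 1) ≤ r * r' := Nat.mul_le_mul c1 c2
          nlinarith
        · have h5 : r.Coprime m := by
            rw [hr.coprime_iff_not_dvd]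
            intro h
            have := Nat.le_of_dvd (by omega) h
            omega
          have h6 := Nat.le_of_dvd K.pos (h5.mul_dvd_of_dvd_of_dvd b1 b2)
          have h7 : (m + 2) * m ≤ r * m := Nat.mul_le_mul_right _ c1
          nlinarith
      · exact b1
    rcases b3 with b3 | b3
    · -- `s ≠ m + 1`
      have h5 : (m + 1).Coprime s := by
        rw [Nat.coprime_primes hlp hs]
        rintro rfl
        rw [Nat.add_sub_cancel] at a3
        obtain ⟨k, rfl⟩ : ∃ k, m = k + 1 := ⟨m - 1, by omega⟩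
        rw [Nat.add_sub_cancel] at a3
        have := Nat.le_of_dvd one_pos ((Nat.dvd_add_right (dvd_refl k)).1 a3)
        omega
      have h6 := Nat.le_of_dvd K.pos (h5.mul_dvd_of_dvd_of_dvd hl1 b3)
      have h7 : (m + 1) * m ≤ (m + 1) * s := Nat.mul_le_mul_left _ (by omega)
      nlinarith
    · have h5 : (m + 1).Coprime (m - 1) := by
        rw [hlp.coprime_iff_not_dvd]
        intro h
        have := Nat.le_of_dvd (by omega) h
        omega
      have h6 := Nat.le_of_dvd K.pos (h5.mul_dvd_of_dvd_of_dvd hl1 b3)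
      obtain ⟨k, rfl⟩ : ∃ k, m = k + 1 := ⟨m - 1, by omega⟩
      rw [Nat.add_sub_cancel] at h6
      nlinarith
  · have h5 := K.pair' (N := N) hn0 hf hM h1 h2 (by omega) (by omega) (by omega) (by nlinarith) (by nlinarith)
      (by nlinarith) (by
        intro q hq h3 h4
        have := Nat.le_of_dvd (by omega) h4
        omega) (by
        intro q hq h3 h4
        have h5 := Nat.le_of_dvd (by omega) h4
        have h6 : m * f ≤ m := by omega
        have h7 : f = 1 := by
          rcases Nat.lt_or_ge f 2 with h | h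
          · omega
          · have : m * 2 ≤ m * f := Nat.mul_le_mul_left _ h
            omega
        subst h7
        have h8 : q = m + 1 := by omega
        subst h8
        exact hcase ⟨hq, rfl⟩)
    have h6 : Nat.lcm (m + 1) m = (m + 1) * m := by
      apply Nat.Coprime.lcm_eq_mul
      simp
    rw [h6, ← ht] at h5
    have h7 := Nat.le_of_dvd K.pos h5
    have h8 : 0 < f * N := Nat.mul_pos hf (by nlinarith)
    have h9 : f * (2 * N) = 2 * (f * N) := by ring
    omega

end Cfsg.Agent.H702.TF
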