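import Mathlib
import Cfsg.Agent.H702.ClFam

/-!
# The classical families have no `Key`: symplectic and orthogonal groups (helper702)
-/

set_option autoImplicit false

namespace Cfsg.Agent.H702.TF

open Finset

theorem prB_dvd (q : ℕ) {m i : ℕ} (h1 : 1 ≤ i) (h : i ≤ m) :
    q ^ (2 * i) - 1 ∣ ∏ i ∈ range m, (q ^ (2 * (i + 1)) - 1) := by
  have h2 : q ^ (2 * (i - 1 + 1)) - 1 ∣ ∏ i ∈ range m, (q ^ (2 * (i + 1)) - 1) :=
    Finset.dvd_prod_of_mem (fun i => q ^ (2 * (i + 1)) - 1) (Finset.mem_range.2 (by omega : i - 1 < m))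
  rwa [show i - 1 + 1 = i by omega] at h2

theorem prB_not_dvd {p f m : ℕ} (hp : p.Prime) (hf : 0 < f) :
    ¬ p ∣ ∏ i ∈ range m, ((p ^ f) ^ (2 * (i + 1)) - 1) := by
  apply not_dvd_prod hp
  intro i _
  rw [← pow_mul]
  exact not_dvd_sub hp (by positivity)

theorem even_case {m r f : ℕ} (hr : r.Prime) (h : (2 * m - 2) * f + 1 ≤ r) (hf : 0 < f) (hm : 3 ≤ m) (h2 : r ∣ 2 * m) :
    False := by
  have h3 : (2 * m - 2) * 1 ≤ (2 * m - 2) * f := Nat.mul_le_mul_left _ hf
  rcases hr.dvd_mul.1 h2 with h4 | h4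
  · have := Nat.le_of_dvd (by norm_num) h4
    omega
  · have := Nat.le_of_dvd (by omega) h4
    omega

theorem lcm_even (k : ℕ) : Nat.lcm (2 * (k + 1)) (2 * k) = 2 * ((k + 1) * k) := by
  rw [Nat.lcm_mul_left]
  congr 1
  apply Nat.Coprime.lcm_eq_mul
  simp

/-- `PSp_{2m}(q)` and `Ω_{2m+1}(q)` -/
theorem not_psp {p f m n M d : ℕ} (hp : p.Prime) (hf : 0 < f) (hn0 : n ≠ 0) (hm : 2 ≤ m)
    (h3 : m = 2 → 3 ≤ p ^ f) (hd : d ∣ p ^ f - 1) (hd2 : d ∣ 2)
    (hn : d * n = (p ^ f) ^ (m ^ 2) * ∏ i ∈ range m, ((p ^ f) ^ (2 * (i + 1)) - 1)) (K : Key n p M) :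
    False := by
  have hM : M ≤ f * m ^ 2 := by
    have hn' := hn
    rw [← pow_mul] at hn'
    exact K.le_of hn0 hp hn' (prB_not_dvd hp hf)
  have has : ∀ i, 1 ≤ i → i ≤ m → 3 ≤ 2 * i * f → ¬ (p = 2 ∧ 2 * i * f = 6) → Has n p (2 * i * f) := by
    intro i h1 h2 h3 h4
    refine has_fac hp h3 h4 ?_ hd (not_dvd_of_lt hf (by omega))
    rw [hn]
    refine Dvd.dvd.mul_left ?_ _
    have := prB_dvd (p ^ f) h1 h2
    rwa [← pow_mul, mul_comm f] at this
  have hK2 := K.two
  have h0 := K.pos
  rcases Nat.lt_or_ge m 3 with hm3 | hm3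
  · obtain rfl : m = 2 := by omega
    have h1 := K.big hn0 (has 2 (by norm_num) le_rfl (by omega) (by omega)) (by omega)
    rcases Nat.lt_or_ge 1 f with hf1 | hf1
    · by_cases hex : p = 2 ∧ 2 * f = 6
      · obtain ⟨rfl, h6⟩ := hex
        obtain rfl : f = 3 := by omega
        have hd7 : ¬ 7 ∣ d := by
          intro h
          have := Nat.le_of_dvd (by norm_num) (h.trans hd2)
          omega
        have h7 : 7 ^ 2 ∣ n := by
          have h8 : 7 ^ 2 ∣ d * n := by
            rw [hn]
            norm_num [Finset.prod_range_succ]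
          exact pow_dvd_of_mul (by norm_num) h8 hd7
        have h9 := K.pow (r := 7) (v := 2) hn0 (by norm_num) (by norm_num) (by norm_num) h7
        rw [h1] at h9
        revert h9
        norm_num
      · obtain ⟨r, hr, h4, h5⟩ := K.exists_mult (e := 2 * f) (d := d) (g := f) (X := (p ^ f) ^ 2 - 1)
          (Y := (p ^ f) ^ 4 - 1) hn0 hp (by omega) hex (by
            intro r v _ _ h
            rwa [mul_comm, pow_mul] at h) (by
            intro r v _ _ h
            refine h.trans ?_
            rw [← pow_mul]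
            exact pow_sub_dvd p _ _ ⟨2, by ring⟩) (by
            rw [hn]
            refine Dvd.dvd.mul_left ?_ _
            rw [Finset.prod_range_succ, Finset.prod_range_succ, Finset.prod_range_zero, one_mul])
            (fun r _ h => Or.inl (h.trans hd)) (not_dvd_of_lt hf le_rfl)
        have h7 := lt_of_dvd_pred hr h4
        rw [h1] at h5
        rcases hr.dvd_mul.1 h5 with h8 | h8
        · have h9 := Nat.le_of_dvd (by norm_num) h8
          omega
        · have h9 := Nat.le_of_dvd hf h8
          omega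
    · obtain rfl : f = 1 := by omega
      have h4 := K.dvd
      rw [h1] at h4
      have h5 : p ∣ 2 ^ 2 := h4
      have h6 := (Nat.prime_dvd_prime_iff_eq hp Nat.prime_two).1 (hp.dvd_of_dvd_pow h5)
      have := h3 rfl
      rw [h6] at this
      omega
  · -- `m ≥ 3`
    obtain ⟨k, rfl⟩ : ∃ k, m = k + 1 := ⟨m - 1, by omega⟩
    have hkf : k * 1 ≤ k * f := Nat.mul_le_mul_left _ hf
    by_cases hx1 : p = 2 ∧ 2 * (k + 1) * f = 6
    · obtain ⟨rfl, h6⟩ := hx1
      obtain rfl : f = 1 := by nlinarith
      obtain rfl : k = 2 := by omega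
      obtain rfl : d = 1 := Nat.dvd_one.1 (by simpa using hd)
      norm_num [Finset.prod_range_succ] at hn hM
      have h7 := K.weak (r := 7) hn0 (by norm_num) (by norm_num) (by rw [hn]; norm_num)
      have h5 := K.weak (r := 5) hn0 (by norm_num) (by norm_num) (by rw [hn]; norm_num)
      clear hn
      interval_cases M <;> first | omega | (revert h7 h5; norm_num)
    by_cases hx2 : p = 2 ∧ 2 * k * f = 6
    · obtain ⟨rfl, h6⟩ := hx2
      obtain rfl : f = 1 := by
        by_contra h
        have : k * 2 ≤ k * f := Nat.mul_le_mul_left _ (by omega)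
        have h7 : 2 * k * f = 2 * (k * f) := by ring
        omega
      obtain rfl : k = 3 := by omega
      obtain rfl : d = 1 := Nat.dvd_one.1 (by simpa using hd)
      norm_num [Finset.prod_range_succ] at hn hM
      have h7 := K.weak (r := 17) hn0 (by norm_num) (by norm_num) (by rw [hn]; norm_num)
      have h5 := K.weak (r := 7) hn0 (by norm_num) (by norm_num) (by rw [hn]; norm_num)
      clear hn
      interval_cases M <;> first | omega | (revert h7 h5; norm_num)
    have e1 : 2 * k * f = 2 * (k * f) := by ring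
    have e2 : 2 * (k + 1) * f = 2 * (k * f) + 2 * f := by ring
    have h1 := has (k + 1) (by omega) le_rfl (by omega) hx1
    have h2 := has k (by omega) (by omega) (by omega) hx2
    have h5 := K.pair' (N := (k + 1) ^ 2) hn0 hf hM h1 h2 (by omega) (by omega) (by omega) (by nlinarith)
      (by nlinarith) (by nlinarith) (by
        intro q hq h3 h4
        have := Nat.le_of_dvd (by omega) h4
        omega) (by
        intro q hq h3 h4
        exact even_case hq (m := k + 1) (by
          rw [show 2 * (k + 1) - 2 = 2 * k by omega]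
          exact h3) hf (by omega) h4)
    rw [lcm_even] at h5
    have h7 := Nat.le_of_dvd h0 h5
    have h8 : f * (k + 1) ^ 2 < f * (2 * ((k + 1) * k)) := by
      apply Nat.mul_lt_mul_of_pos_left _ hf
      nlinarith
    omega

/-- `PΩ⁺_{2m}(q)` -/
theorem not_oplus {p f m n M d : ℕ} (hp : p.Prime) (hf : 0 < f) (hn0 : n ≠ 0) (hm : 4 ≤ m) (hd4 : d ∣ 4)
    (hd1 : p = 2 → d = 1)
    (hn : d * n = (p ^ f) ^ (m * (m - 1)) * (((p ^ f) ^ m - 1) * ∏ i ∈ range (m - 1), ((p ^ f) ^ (2 * (i + 1)) - 1)))
    (K : Key n p M) : False := by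
  have hd : ∀ r : ℕ, r.Prime → r ∣ d → r ∣ p ^ 1 - 1 ∨ r = 2 := by
    intro r hr h
    right
    have h1 : r ∣ 2 ^ 2 := h.trans hd4
    exact (Nat.prime_dvd_prime_iff_eq hr Nat.prime_two).1 (hr.dvd_of_dvd_pow h1)
  have hM : M ≤ f * (m * (m - 1)) := by
    have hn' := hn
    rw [← pow_mul] at hn'
    refine K.le_of hn0 hp hn' (not_dvd_mul hp ?_ (prB_not_dvd hp hf))
    rw [← pow_mul]
    exact not_dvd_sub hp (Nat.mul_pos hf (by omega))
  have has : ∀ i, 1 ≤ i → i ≤ m - 1 → 3 ≤ 2 * i * f → ¬ (p = 2 ∧ 2 * i * f = 6) → Has n p (2 * i * f) := by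
    intro i h1 h2 h3 h4
    refine has_of (d := d) (g := 1) hp (by omega) (by omega) h4 ?_ hd ?_
    · intro r hr h5
      rw [hn]
      refine Dvd.dvd.mul_left (Dvd.dvd.mul_left ?_ _) _
      have := prB_dvd (p ^ f) h1 h2
      rw [← pow_mul, mul_comm f] at this
      exact ((h5 _).2 dvd_rfl).trans this
    · intro h
      have := Nat.le_of_dvd one_pos h
      omega
  have hK2 := K.two
  have h0 := K.pos
  rcases Nat.lt_or_ge m 5 with hm5 | hm5
  · obtain rfl : m = 4 := by omega
    by_cases hx : p = 2 ∧ 2 * 3 * f = 6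
    · obtain ⟨rfl, h6⟩ := hx
      obtain rfl : f = 1 := by omega
      obtain rfl : d = 1 := hd1 rfl
      norm_num [Finset.prod_range_succ] at hn hM
      have h7 := K.weak (r := 7) hn0 (by norm_num) (by norm_num) (by rw [hn]; norm_num)
      have h5 := K.pow (r := 5) (v := 2) hn0 (by norm_num) (by norm_num) (by norm_num) (by rw [hn]; norm_num)
      clear hn
      interval_cases M <;> first | omega | (revert h7 h5; norm_num)
    have h1 := has 3 (by norm_num) (by norm_num) (by omega) hx
    have h2 := has 2 (by norm_num) (by norm_num) (by omega) (by omega)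
    have h5 := K.pair (N := 12) hn0 hf hM h1 h2 (by norm_num) (by norm_num) (by norm_num) (by norm_num) (by norm_num)
      (by norm_num) (by
        intro q hq h1 h2
        have := Nat.le_of_dvd (by norm_num) h2
        omega) (by
        intro q hq h1 h2
        have := Nat.le_of_dvd (by norm_num) h2
        interval_cases q <;> first | omega | exact absurd hq (by norm_num))
    have h6 := eq_of_lcm (N := 12) h5 K.pos hM
    obtain ⟨r, hr, h4, h5⟩ := K.exists_mult (e := 4 * f) (d := d) (g := 1) (X := (p ^ f) ^ 4 - 1)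
      (Y := (p ^ f) ^ 4 - 1) hn0 hp (by omega) (by omega) (by
        intro r v _ _ h
        rwa [mul_comm, pow_mul] at h) (by
        intro r v _ _ h
        rwa [mul_comm, pow_mul] at h) (by
        rw [hn]
        refine Dvd.dvd.mul_left (Nat.mul_dvd_mul_left _ ?_) _
        exact prB_dvd (p ^ f) (m := 4 - 1) (i := 2) (by norm_num) (by norm_num)) hd (by
        intro h
        have := Nat.le_of_dvd one_pos h
        omega)
    have h7 := lt_of_dvd_pred hr h4
    rw [h6] at h5
    rcases hr.dvd_mul.1 h5 with h8 | h8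
    · have h9 := Nat.le_of_dvd hf h8
      omega
    · have h9 := Nat.le_of_dvd (by norm_num) h8
      interval_cases r <;> first | omega | exact absurd hr (by norm_num)
  · obtain ⟨k, rfl⟩ : ∃ k, m = k + 2 := ⟨m - 2, by omega⟩
    rw [show k + 2 - 1 = k + 1 by omega] at *
    have hkf : k * 1 ≤ k * f := Nat.mul_le_mul_left _ hf
    by_cases hx2 : p = 2 ∧ 2 * k * f = 6
    · obtain ⟨rfl, h6⟩ := hx2
      obtain rfl : f = 1 := by
        by_contra h
        have : k * 2 ≤ k * f := Nat.mul_le_mul_left _ (by omega)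
        have h7 : 2 * k * f = 2 * (k * f) := by ring
        omega
      obtain rfl : k = 3 := by omega
      obtain rfl : d = 1 := hd1 rfl
      norm_num [Finset.prod_range_succ] at hn hM
      have h7 := K.weak (r := 31) hn0 (by norm_num) (by norm_num) (by rw [hn]; norm_num)
      have h5 := K.weak (r := 17) hn0 (by norm_num) (by norm_num) (by rw [hn]; norm_num)
      clear hn
      interval_cases M <;> first | omega | (revert h7 h5; norm_num)
    have e1 : 2 * k * f = 2 * (k * f) := by ring
    have e2 : 2 * (k + 1) * f = 2 * (k * f) + 2 * f := by ring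
    have h1 := has (k + 1) (by omega) le_rfl (by omega) (by omega)
    have h2 := has k (by omega) (by omega) (by omega) hx2
    have h5 := K.pair' (N := (k + 2) * (k + 1)) hn0 hf hM h1 h2 (by omega) (by omega) (by omega) (by nlinarith)
      (by nlinarith) (by nlinarith) (by
        intro q hq h3 h4
        have := Nat.le_of_dvd (by omega) h4
        omega) (by
        intro q hq h3 h4
        exact even_case hq (m := k + 1) (by
          rw [show 2 * (k + 1) - 2 = 2 * k by omega]
          exact h3) hf (by omega) h4)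
    rw [lcm_even] at h5
    have h7 := Nat.le_of_dvd h0 h5
    have h8 : f * ((k + 2) * (k + 1)) < f * (2 * ((k + 1) * k)) := by
      apply Nat.mul_lt_mul_of_pos_left _ hf
      nlinarith
    omega

/-- `PΩ⁻_{2m}(q)` -/
theorem not_ominus {p f m n M d : ℕ} (hp : p.Prime) (hf : 0 < f) (hn0 : n ≠ 0) (hm : 4 ≤ m) (hd4 : d ∣ 4)
    (hd1 : p = 2 → d = 1)
    (hn : d * n = (p ^ f) ^ (m * (m - 1)) * (((p ^ f) ^ m + 1) * ∏ i ∈ range (m - 1), ((p ^ f) ^ (2 * (i + 1)) - 1)))
    (K : Key n p M) : False := by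
  have hd : ∀ r : ℕ, r.Prime → r ∣ d → r ∣ p ^ 1 - 1 ∨ r = 2 := by
    intro r hr h
    right
    have h1 : r ∣ 2 ^ 2 := h.trans hd4
    exact (Nat.prime_dvd_prime_iff_eq hr Nat.prime_two).1 (hr.dvd_of_dvd_pow h1)
  have hM : M ≤ f * (m * (m - 1)) := by
    have hn' := hn
    rw [← pow_mul] at hn'
    refine K.le_of hn0 hp hn' (not_dvd_mul hp ?_ (prB_not_dvd hp hf))
    rw [← pow_mul]
    exact not_dvd_add hp (Nat.mul_pos hf (by omega))
  have has : ∀ i, 1 ≤ i → i ≤ m - 1 → 3 ≤ 2 * i * f → ¬ (p = 2 ∧ 2 * i * f = 6) → Has n p (2 * i * f) := by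
    intro i h1 h2 h3 h4
    refine has_of (d := d) (g := 1) hp (by omega) (by omega) h4 ?_ hd ?_
    · intro r hr h5
      rw [hn]
      refine Dvd.dvd.mul_left (Dvd.dvd.mul_left ?_ _) _
      have := prB_dvd (p ^ f) h1 h2
      rw [← pow_mul, mul_comm f] at this
      exact ((h5 _).2 dvd_rfl).trans this
    · intro h
      have := Nat.le_of_dvd one_pos h
      omega
  have hK2 := K.two
  have h0 := K.pos
  obtain ⟨k, rfl⟩ : ∃ k, m = k + 1 := ⟨m - 1, by omega⟩
  rw [Nat.add_sub_cancel] at *
  have hkf : k * 1 ≤ k * f := Nat.mul_le_mul_left _ hf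
  by_cases hx2 : p = 2 ∧ 2 * k * f = 6
  · obtain ⟨rfl, h6⟩ := hx2
    obtain rfl : f = 1 := by
      by_contra h
      have : k * 2 ≤ k * f := Nat.mul_le_mul_left _ (by omega)
      have h7 : 2 * k * f = 2 * (k * f) := by ring
      omega
    obtain rfl : k = 3 := by omega
    obtain rfl : d = 1 := hd1 rfl
    norm_num [Finset.prod_range_succ] at hn hM
    have h7 := K.weak (r := 17) hn0 (by norm_num) (by norm_num) (by rw [hn]; norm_num)
    have h5 := K.weak (r := 7) hn0 (by norm_num) (by norm_num) (by rw [hn]; norm_num)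
    clear hn
    interval_cases M <;> first | omega | (revert h7 h5; norm_num)
  have e1 : 2 * k * f = 2 * (k * f) := by ring
  have e2 : 2 * (k + 1) * f = 2 * (k * f) + 2 * f := by ring
  have h1 : Has n p (2 * (k + 1) * f) := by
    rw [mul_assoc]
    refine has_of (d := d) (g := 1) hp (by nlinarith) (by intro h; nlinarith) (by
      rintro ⟨-, h⟩
      nlinarith) ?_ hd ?_
    · intro r hr h5
      rw [hn]
      refine Dvd.dvd.mul_left (Dvd.dvd.mul_right ?_ _) _
      rw [← pow_mul, mul_comm f]
      exact dvd_add hp (by positivity) hr h5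
    · intro h
      have := Nat.le_of_dvd one_pos h
      nlinarith
  have h2 := has k (by omega) (by omega) (by omega) hx2
  have h5 := K.pair' (N := (k + 1) * k) hn0 hf hM h1 h2 (by omega) (by omega) (by omega) (by nlinarith)
    (by nlinarith) (by nlinarith) (by
      intro q hq h3 h4
      have := Nat.le_of_dvd (by omega) h4
      omega) (by
      intro q hq h3 h4
      exact even_case hq (m := k + 1) (by
        rw [show 2 * (k + 1) - 2 = 2 * k by omega]
        exact h3) hf (by omega) h4)
  rw [lcm_even] at h5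
  have h7 := Nat.le_of_dvd h0 h5
  have h8 : f * ((k + 1) * k) < f * (2 * ((k + 1) * k)) := by
    apply Nat.mul_lt_mul_of_pos_left _ hf
    nlinarith
  omega

end Cfsg.Agent.H702.TF
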