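import Mathlib
import Cfsg.Agent.H702.ClFamB

/-!
# The classical families have no `Key`: unitary groups (helper702)
-/

set_option autoImplicit false

namespace Cfsg.Agent.H702.TF

open Finset

/-- the factors -/
def uf (q i : ℕ) : ℕ := if i % 2 = 0 then q ^ (i + 1) + 1 else q ^ (i + 1) - 1

theorem uf_dvd (q : ℕ) {l i : ℕ} (h : i < l) : uf q i ∣ ∏ i ∈ range l, uf q i :=
  Finset.dvd_prod_of_mem (fun i => uf q i) (Finset.mem_range.2 h)

theorem psu_M {p f l d n M : ℕ} (hp : p.Prime) (hf : 0 < f) (hn0 : n ≠ 0)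
    (hn : d * n = (p ^ f) ^ (l * (l - 1) / 2) * ∏ i ∈ range l, uf (p ^ f) i) (K : Key n p M) :
    M ≤ f * (l * (l - 1) / 2) := by
  rw [← pow_mul] at hn
  refine K.le_of hn0 hp hn ?_
  apply not_dvd_prod hp
  intro i _
  unfold uf
  split_ifs
  · rw [← pow_mul]
    exact not_dvd_add hp (by positivity)
  · rw [← pow_mul]
    exact not_dvd_sub hp (by positivity)

theorem hd_psu {p f l : ℕ} : ∀ r : ℕ, r.Prime → r ∣ Nat.gcd l (p ^ f + 1) * (p ^ f + 1) →
    r ∣ p ^ (2 * f) - 1 ∨ r = 2 := by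
  intro r hr h
  left
  have h1 : r ∣ p ^ f + 1 := by
    rcases hr.dvd_mul.1 h with h2 | h2
    · exact h2.trans (Nat.gcd_dvd_right _ _)
    · exact h2
  rw [mul_comm, pow_mul, sq_sub]
  exact h1.mul_left _

theorem psu_odd {p f l n a : ℕ} (hp : p.Prime) (hf : 0 < f)
    (hn : (Nat.gcd l (p ^ f + 1) * (p ^ f + 1)) * n = (p ^ f) ^ (l * (l - 1) / 2) * ∏ i ∈ range l, uf (p ^ f) i)
    (ha : 3 ≤ a) (hal : a ≤ l) (ha2 : a % 2 = 1) (hex : ¬ (p = 2 ∧ a * f = 3)) : Has n p (2 * a * f) := by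
  rw [mul_assoc]
  have haf : a * 1 ≤ a * f := Nat.mul_le_mul_left _ hf
  refine has_of (d := Nat.gcd l (p ^ f + 1) * (p ^ f + 1)) (g := 2 * f) hp (by omega) (by omega) (by omega) ?_
    hd_psu ?_
  · intro r hr h1
    rw [hn]
    refine Dvd.dvd.mul_left (Dvd.dvd.trans ?_ (uf_dvd (p ^ f) (by omega : a - 1 < l))) _
    unfold uf
    rw [if_pos (by omega), ← pow_mul, show a - 1 + 1 = a by omega, mul_comm f]
    exact dvd_add hp (by omega) hr h1
  · rw [← mul_assoc]
    exact not_dvd_of_lt2 hf (by omega)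

theorem psu_even {p f l n b : ℕ} (hp : p.Prime) (hf : 0 < f)
    (hn : (Nat.gcd l (p ^ f + 1) * (p ^ f + 1)) * n = (p ^ f) ^ (l * (l - 1) / 2) * ∏ i ∈ range l, uf (p ^ f) i)
    (hb : 3 ≤ b) (hbl : b ≤ l) (hb2 : b % 2 = 0) (hex : ¬ (p = 2 ∧ b * f = 6)) : Has n p (b * f) := by
  have haf : b * 1 ≤ b * f := Nat.mul_le_mul_left _ hf
  refine has_of (d := Nat.gcd l (p ^ f + 1) * (p ^ f + 1)) (g := 2 * f) hp (by omega) (by omega) hex ?_
    hd_psu (not_dvd_of_lt2 hf (by omega))
  intro r hr h1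
  rw [hn]
  refine Dvd.dvd.mul_left (Dvd.dvd.trans ?_ (uf_dvd (p ^ f) (by omega : b - 1 < l))) _
  unfold uf
  rw [if_neg (by omega), ← pow_mul, show b - 1 + 1 = b by omega, mul_comm f]
  exact (h1 _).2 dvd_rfl

/-- the general argument for `PSU`: `a` odd, `b` even, `{a, b} = {l, l - 1}` -/
theorem psu_main {p f l n M N a b : ℕ} (hp : p.Prime) (hf : 0 < f) (hn0 : n ≠ 0)
    (hn : (Nat.gcd l (p ^ f + 1) * (p ^ f + 1)) * n = (p ^ f) ^ (l * (l - 1) / 2) * ∏ i ∈ range l, uf (p ^ f) i)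
    (K : Key n p M) (hM : M ≤ f * N) (hN : 2 * N = a * b) (ha3 : 3 ≤ a) (hb4 : 4 ≤ b) (ha2 : a % 2 = 1)
    (hb2 : b % 2 = 0) (hal : a ≤ l) (hbl : b ≤ l) (hab : a ≤ b + 1) (hba : b ≤ a + 1) (hab1 : a.Coprime b)
    (hx1 : ¬ (p = 2 ∧ a * f = 3)) (hx2 : ¬ (p = 2 ∧ b * f = 6)) (hx3 : ¬ (p = 2 ∧ f = 1 ∧ a = 5)) : False := by
  have h1 := psu_odd hp hf hn ha3 hal ha2 hx1
  have h2 := psu_even hp hf hn (by omega) hbl hb2 hx2
  have hM0 := K.pos
  by_cases hcase : a = b + 1 ∧ a.Prime ∧ f = 1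
  · obtain ⟨hab', hap, rfl⟩ := hcase
    rw [one_mul] at hM
    have h3 : Has n p (2 * (a - 2) * 1) := psu_odd hp hf hn (by omega) (by omega) (by omega) (by
      rintro ⟨rfl, h⟩
      exact hx3 ⟨rfl, rfl, by omega⟩)
    rw [mul_one] at h1 h2 h3
    obtain ⟨r, hr, o1, a1, b1⟩ := K.has h1 hn0
    obtain ⟨r', hr', o2, a2, b2⟩ := K.has h2 hn0
    obtain ⟨s, hs, o3, a3, b3⟩ := K.has h3 hn0
    have c1 := lt_of_dvd_pred hr a1
    have c2 := lt_of_dvd_pred hr' a2
    have c3 := lt_of_dvd_pred hs a3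
    have hl1 : 2 * a ∣ M := by
      rcases b1 with b1 | b1
      · exfalso
        rcases b2 with b2 | b2
        · have h5 := Nat.le_of_dvd K.pos (((Nat.coprime_primes hr hr').2
            (ne_of_ord o1 o2 (by omega))).mul_dvd_of_dvd_of_dvd b1 b2)
          have h6 : (2 * a + 1) * (b + 1) ≤ r * r' := Nat.mul_le_mul c1 c2
          nlinarith
        · have h5 : r.Coprime b := by
            rw [hr.coprime_iff_not_dvd]
            intro h
            have := Nat.le_of_dvd (by omega) h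
            omega
          have h6 := Nat.le_of_dvd K.pos (h5.mul_dvd_of_dvd_of_dvd b1 b2)
          have h7 : (2 * a + 1) * b ≤ r * b := Nat.mul_le_mul_right _ c1
          nlinarith
      · exact b1
    rcases b3 with b3 | b3
    · have h5 : (2 * a).Coprime s := by
        apply Nat.Coprime.mul_left
        · rw [Nat.coprime_primes Nat.prime_two hs]
          omega
        · rw [Nat.coprime_primes hap hs]
          omega
      have h6 := Nat.le_of_dvd K.pos (h5.mul_dvd_of_dvd_of_dvd hl1 b3)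
      have h7 : (2 * a) * b ≤ (2 * a) * s := Nat.mul_le_mul_left _ (by omega)
      nlinarith
    · obtain ⟨M', rfl⟩ : 2 ∣ M := (Dvd.intro _ rfl).trans hl1
      have h8 : a ∣ M' := Nat.dvd_of_mul_dvd_mul_left two_pos hl1
      have h9 : a - 2 ∣ M' := Nat.dvd_of_mul_dvd_mul_left two_pos b3
      have h5 : a.Coprime (a - 2) := by
        rw [hap.coprime_iff_not_dvd]
        intro h
        have := Nat.le_of_dvd (by omega) h
        omega
      have h6 := Nat.le_of_dvd (by omega) (h5.mul_dvd_of_dvd_of_dvd h8 h9)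
      obtain ⟨k, rfl⟩ : ∃ k, a = k + 2 := ⟨a - 2, by omega⟩
      rw [Nat.add_sub_cancel] at h6
      obtain rfl : b = k + 1 := by omega
      nlinarith
  · have h5 := K.pair' (N := N) hn0 hf hM h1 h2 (by omega) (by omega) (by omega) (by nlinarith) (by nlinarith)
      (by nlinarith) (by
        intro q hq h3 h4
        have h5 := Nat.le_of_dvd (by omega) h4
        have h6 : 2 * a * 1 ≤ 2 * a * f := Nat.mul_le_mul_left _ hf
        omega) (by
        intro q hq h3 h4
        have h6 : b * 1 ≤ b * f := Nat.mul_le_mul_left _ hf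
        rcases hq.dvd_mul.1 h4 with h5 | h5
        · have := Nat.le_of_dvd (by norm_num) h5
          omega
        · have h7 := Nat.le_of_dvd (by omega) h5
          have h8 : f = 1 := by
            rcases Nat.lt_or_ge f 2 with h | h
            · omega
            · have : b * 2 ≤ b * f := Nat.mul_le_mul_left _ h
              omega
          subst h8
          have h9 : q = a := by omega
          subst h9
          exact hcase ⟨by omega, hq, rfl⟩)
    have h6 : Nat.lcm (2 * a) b = a * b := by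
      obtain ⟨b', rfl⟩ : 2 ∣ b := by omega
      rw [Nat.lcm_mul_left, (Nat.Coprime.coprime_dvd_right (Dvd.intro_left _ rfl) hab1).lcm_eq_mul]
      ring
    rw [h6, ← hN] at h5
    have h7 := Nat.le_of_dvd K.pos h5
    have h8 : 0 < f * N := Nat.mul_pos hf (by nlinarith)
    have h9 : f * (2 * N) = 2 * (f * N) := by ring
    omega

theorem not_psu_three {p f n M : ℕ} (hp : p.Prime) (hf : 0 < f) (hn0 : n ≠ 0) (hq : p ^ f ≠ 2)
    (hn : (Nat.gcd 3 (p ^ f + 1) * (p ^ f + 1)) * n = (p ^ f) ^ (3 * (3 - 1) / 2) * ∏ i ∈ range 3, uf (p ^ f) i)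
    (K : Key n p M) : False := by
  have hM := psu_M hp hf hn0 hn K
  have hMf : M ≤ f * 3 := by simpa using hM
  have hex : ¬ (p = 2 ∧ 3 * f = 3) := by
    rintro ⟨rfl, h⟩
    obtain rfl : f = 1 := by omega
    exact hq rfl
  have h3 := K.big hn0 (psu_odd hp hf hn (a := 3) le_rfl le_rfl (by norm_num) hex) (by omega)
  omega

/-- `PSU_l(q)` -/
theorem not_psu {p f l n M : ℕ} (hp : p.Prime) (hf : 0 < f) (hn0 : n ≠ 0) (hl : 3 ≤ l)
    (hq : l = 3 → p ^ f ≠ 2)
    (hn : (Nat.gcd l (p ^ f + 1) * (p ^ f + 1)) * n = (p ^ f) ^ (l * (l - 1) / 2) * ∏ i ∈ range l, uf (p ^ f) i)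
    (K : Key n p M) : False := by
  rcases Nat.lt_or_ge l 4 with hl4 | hl4
  · obtain rfl : l = 3 := by omega
    exact not_psu_three hp hf hn0 (hq rfl) hn K
  have hM := psu_M hp hf hn0 hn K
  have ht := tri l
  have h0 := K.pos
  have hK2 := K.two
  by_cases hx4 : p = 2 ∧ f = 1 ∧ l ≤ 7
  · obtain ⟨rfl, rfl, hl7⟩ := hx4
    interval_cases l
    · norm_num [Finset.prod_range_succ, uf] at hn hM
      have hn' : n = 25920 := by omega
      have h7 := K.weak (r := 5) hn0 (by norm_num) (by norm_num) (by rw [hn']; norm_num)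
      have h5 := K.pow (r := 3) (v := 4) hn0 (by norm_num) (by norm_num) (by norm_num) (by rw [hn']; norm_num)
      clear hn
      interval_cases M <;> first | omega | (revert h7 h5; norm_num)
    · norm_num [Finset.prod_range_succ, uf] at hn hM
      have hn' : n = 13685760 := by omega
      have h7 := K.weak (r := 11) hn0 (by norm_num) (by norm_num) (by rw [hn']; norm_num)
      have h5 := K.pow (r := 3) (v := 5) hn0 (by norm_num) (by norm_num) (by norm_num) (by rw [hn']; norm_num)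
      clear hn
      interval_cases M <;> first | omega | (revert h7 h5; norm_num)
    · norm_num [Finset.prod_range_succ, uf] at hn hM
      have hn' : n = 9196830720 := by omega
      have h7 := K.weak (r := 11) hn0 (by norm_num) (by norm_num) (by rw [hn']; norm_num)
      have h5 := K.weak (r := 7) hn0 (by norm_num) (by norm_num) (by rw [hn']; norm_num)
      clear hn
      interval_cases M <;> first | omega | (revert h7 h5; norm_num)
    · norm_num [Finset.prod_range_succ, uf] at hn hM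
      have hn' : n = 227787103272960 := by omega
      have h7 := K.weak (r := 43) hn0 (by norm_num) (by norm_num) (by rw [hn']; norm_num)
      have h5 := K.weak (r := 11) hn0 (by norm_num) (by norm_num) (by rw [hn']; norm_num)
      clear hn
      interval_cases M <;> first | omega | (revert h7 h5; norm_num)
  have hx1 : ∀ a, 3 ≤ a → l ≤ a + 1 → ¬ (p = 2 ∧ a * f = 3) := by
    rintro a ha hla ⟨h1, h2⟩
    have h3 : a * 1 ≤ a * f := Nat.mul_le_mul_left _ hf
    have h4 : a = 3 := by omega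
    subst h4
    exact hx4 ⟨h1, by omega, by omega⟩
  have hx2 : ∀ b, 4 ≤ b → b % 2 = 0 → l ≤ b + 1 → ¬ (p = 2 ∧ b * f = 6) := by
    rintro b hb hb2 hlb ⟨h1, h2⟩
    have h3 : b * 1 ≤ b * f := Nat.mul_le_mul_left _ hf
    have h4 : b = 6 ∨ b = 4 := by omega
    rcases h4 with rfl | rfl
    · exact hx4 ⟨h1, by omega, by omega⟩
    · omega
  have hx3 : ∀ a, l ≤ a + 1 → ¬ (p = 2 ∧ f = 1 ∧ a = 5) := by
    rintro a hla ⟨h1, h2, h3⟩
    exact hx4 ⟨h1, h2, by omega⟩
  rcases Nat.even_or_odd l with hl2 | hl2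
  · have hl2' : l % 2 = 0 := Nat.even_iff.1 hl2
    refine psu_main (a := l - 1) (b := l) hp hf hn0 hn K hM (by rw [ht, mul_comm]) (by omega) hl4 (by omega) hl2'
      (by omega) le_rfl (by omega) (by omega) ?_ (hx1 _ (by omega) (by omega)) (hx2 _ hl4 hl2' (by omega))
      (hx3 _ (by omega))
    obtain ⟨k, rfl⟩ : ∃ k, l = k + 1 := ⟨l - 1, by omega⟩
    simp
  · have hl2' : l % 2 = 1 := Nat.odd_iff.1 hl2
    refine psu_main (a := l) (b := l - 1) hp hf hn0 hn K hM ht (by omega) (by omega) hl2' (by omega)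
      le_rfl (by omega) (by omega) (by omega) ?_ (hx1 _ (by omega) (by omega)) (hx2 _ (by omega) (by omega) (by omega))
      (hx3 _ (by omega))
    obtain ⟨k, rfl⟩ : ∃ k, l = k + 1 := ⟨l - 1, by omega⟩
    simp

end Cfsg.Agent.H702.TF
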