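import Mathlib
import Cfsg.Agent.H702.Simple
import Cfsg.Agent.H702.Elim

/-!
# The simple normal subgroup carries the numerical data (helper702)
-/

set_option autoImplicit false

namespace Cfsg.Agent.H702.TF

open Subgroup Cfsg
open scoped Pointwise

universe u

theorem cyc_of {Y : Type*} [Group Y] [Finite Y] {p : ℕ} [Fact p.Prime] {Q : Subgroup Y} (hQ : IsCyclic Q)
    (hQp : IsPGroup p Q) (hQi : ¬ p ∣ Q.index) {A : Subgroup Y} (hA : IsPGroup p A) : IsCyclic A := by
  obtain ⟨P, hP⟩ := hA.exists_le_sylow
  have e := P.equiv (hQp.toSylow hQi)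
  have h0 : IsCyclic (hQp.toSylow hQi) := hQ
  have h1 : IsCyclic P := isCyclic_of_injective e.toMonoidHom e.injective
  exact isCyclic_of_injective (inclusion hP) (inclusion_injective hP)

theorem prank_of {Y : Type*} [Group Y] [Finite Y] {p : ℕ} (hp : p.Prime)
    (h : ∀ A : Subgroup Y, IsPGroup p A → IsCyclic A) : PRankLE p 2 Y := by
  intro A _ hA
  have h1 : IsPGroup p A := fun a => ⟨1, by
    rw [pow_one]
    exact Subtype.ext (hA a a.2)⟩
  have h2 := h A h1
  obtain ⟨g, hg⟩ := IsCyclic.exists_generator (α := A)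
  have h3 : Nat.card A = orderOf g := by
    rw [← Nat.card_zpowers]
    exact (Nat.card_congr (Equiv.subtypeUnivEquiv hg)).symm
  have h4 : orderOf g ∣ p := orderOf_dvd_of_pow_eq_one (Subtype.ext (hA g g.2))
  have h5 := Nat.le_of_dvd hp.pos h4
  have h6 := hp.two_le
  nlinarith

variable {X : Type u} [Group X] [Finite X] {T : Subgroup X}

theorem Iso.cyclic_of_fac (h : Iso T) {S : Subgroup X} {p : ℕ} (hp : p.Prime)
    (hk : ((normalizer (T : Set X)).relIndex S).factorization p = 0) {A : Subgroup S} (hA : IsPGroup p A) :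
    IsCyclic A := by
  have : Fact p.Prime := ⟨hp⟩
  by_cases hpt : p ∣ Nat.card T
  · have h1 : IsCyclic (A.map S.subtype) := h.isCyclic_pgroup hp hpt (hA.map S.subtype)
    have e := A.equivMapOfInjective S.subtype S.subtype_injective
    exact isCyclic_of_injective e.toMonoidHom e.injective
  · set N : Subgroup S := (normalizer (T : Set X)).subgroupOf S with hN
    let Q : Sylow p N := default
    have hQp : IsPGroup p ((Q : Subgroup N).map N.subtype) := Q.isPGroup'.map N.subtype
    refine cyc_of (Q := (Q : Subgroup N).map N.subtype) ?_ hQp ?_ hA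
    · have h1 : IsCyclic (((Q : Subgroup N).map N.subtype).map S.subtype) := by
        apply h.isCyclic_of_disjoint
        · rintro _ ⟨_, ⟨x, hx, rfl⟩, rfl⟩
          exact x.2
        · rw [eq_bot_iff_card]
          have h2 := (IsPGroup.iff_card.1 (hQp.map S.subtype))
          obtain ⟨n, hn⟩ := h2
          have h3 : (Nat.card (((Q : Subgroup N).map N.subtype).map S.subtype)).Coprime (Nat.card T) := by
            rw [hn]
            exact Nat.Coprime.pow_left _ ((hp.coprime_iff_not_dvd).2 hpt)
          exact Nat.dvd_one.1 (h3 ▸ Nat.dvd_gcd (card_dvd_of_le inf_le_left) (card_dvd_of_le inf_le_right))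
      have e := ((Q : Subgroup N).map N.subtype).equivMapOfInjective S.subtype S.subtype_injective
      exact isCyclic_of_injective e.toMonoidHom e.injective
    · rw [index_map_subtype, hp.dvd_mul, not_or]
      refine ⟨Q.not_dvd_index, ?_⟩
      intro h1
      have h2 := (hp.factorization_pos_of_dvd (index_ne_zero_of_finite (H := N)) h1)
      change 0 < ((normalizer (T : Set X)).relIndex S).factorization p at h2
      omega

/-- **The data.** -/
theorem Iso.bad (h : Iso T) {S : Subgroup X} [hSn : S.Normal] (hTS : T ≤ S)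
    (hprime : ∀ s : ℕ, s.Prime → s ∣ Nat.card X → ¬ s ∣ Nat.card T → s ∣ T.relIndex (normalizer (T : Set X)))
    (hk : ∃ y, (normalizer (T : Set X)).index = y ^ (T.relIndex (normalizer (T : Set X))))
    (hmod : ∀ s : ℕ, s.Prime → Nat.card T ∣ s ^ ((normalizer (T : Set X)).index).factorization s - 1)
    (h2 : ((normalizer (T : Set X)).index).factorization 2 ≠ 0) :
    Bad (Nat.card S) (Nat.card T) (T.relIndex (normalizer (T : Set X)))
      (T.relIndex (normalizer (T : Set X) ⊓ S)) (normalizer (T : Set X)).index := by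
  set N := normalizer (T : Set X) with hN
  have hTN : T ≤ N := le_normalizer
  have hrel := h.relIndex_eq hTS
  have hn : Nat.card S = Nat.card T * T.relIndex (N ⊓ S) * N.index := by
    rw [← hrel]
    have h3 : Nat.card (N ⊓ S : Subgroup X) * N.relIndex S = Nat.card S := by
      have := card_mul_index (N.subgroupOf S)
      rw [← inf_subgroupOf_right, Nat.card_congr (subgroupOfEquivOfLe (inf_le_right : N ⊓ S ≤ S)).toEquiv] at this
      rw [← inf_relIndex_right]
      exact this
    have h4 : Nat.card T * T.relIndex (N ⊓ S) = Nat.card (N ⊓ S : Subgroup X) := by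
      rw [← Nat.card_congr (subgroupOfEquivOfLe (le_inf hTN hTS)).toEquiv]
      exact card_mul_index _
    rw [h4, h3]
  refine ⟨hn, ?_, h.odd, h.one_lt, ?_, ?_, ?_, hk, hmod, h2, Nat.card_pos.ne'⟩
  · exact Dvd.intro _ (relIndex_mul_relIndex T (N ⊓ S) N (le_inf hTN hTS) inf_le_left)
  · have h3 : T.relIndex (N ⊓ S) * N.index ∣ T.index := by
      have h4 : Nat.card T * (T.relIndex (N ⊓ S) * N.index) ∣ Nat.card T * T.index := by
        rw [card_mul_index, ← mul_assoc, ← hn]
        exact card_subgroup_dvd_card S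
      exact Nat.dvd_of_mul_dvd_mul_left Nat.card_pos h4
    exact Nat.Coprime.coprime_dvd_right h3 h.cop
  · intro r hr hrS hrt
    exact hprime r hr (hrS.trans (card_subgroup_dvd_card S)) hrt
  · intro r hr hrt
    exact h.relIndex_dvd hr hrt

/-- **No group with an isolated cyclic Hall subgroup and the data.** -/
theorem Iso.main (h : Iso T) (OT : OrdDiv.OrderTable.{u})
    (hCFSG : ∀ (S : Type u) [Group S] [Finite S] [IsSimpleGroup S], IsKnownSimple' S)
    (hFT : ∀ (S : Type u) [Group S] [Finite S], Odd (Nat.card S) → Group.IsSolvable S)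
    (hO : ∀ N : Subgroup X, N.Normal → (Nat.card N).Coprime (Nat.card T) → N = ⊥)
    (hTn : ¬ T.Normal)
    (hprime : ∀ s : ℕ, s.Prime → s ∣ Nat.card X → ¬ s ∣ Nat.card T → s ∣ T.relIndex (normalizer (T : Set X)))
    (hk : ∃ y, (normalizer (T : Set X)).index = y ^ (T.relIndex (normalizer (T : Set X))))
    (hmod : ∀ s : ℕ, s.Prime → Nat.card T ∣ s ^ ((normalizer (T : Set X)).index).factorization s - 1) : False := by
  obtain ⟨S, hSn, hSs, hna, r, hr, hrt, hrS⟩ := h.exists_simple hO hTn
  have hTS := h.le_simple hna hr hrt hrS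
  have hrel := h.relIndex_eq hTS
  have h2 : ((normalizer (T : Set X)).index).factorization 2 ≠ 0 := by
    intro h3
    rw [← hrel] at h3
    have hev : 2 ∣ Nat.card S := by
      by_contra h4
      have h5 := hFT S (Nat.not_even_iff_odd.1 (fun h6 => h4 (even_iff_two_dvd.1 h6)))
      exact hna ((IsSimpleGroup.comm_iff_isSolvable (G := S)).2 h5)
    have : Fact (Nat.Prime 2) := ⟨Nat.prime_two⟩
    let P : Sylow 2 S := default
    have h5 : IsCyclic P := h.cyclic_of_fac Nat.prime_two h3 P.isPGroup'
    exact not_normalizer_le hna hev P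
      (IsCyclic.normalizer_le_centralizer ((Nat.minFac_eq_two_iff _).2 hev) h5)
  refine elim OT (hCFSG S) hna (h.bad hTS hprime hk hmod h2) ?_
  intro p hp _ hkp
  rw [← hrel] at hkp
  exact prank_of hp fun A hA => h.cyclic_of_fac hp hkp hA

end Cfsg.Agent.H702.TF
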