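import Mathlib
import Cfsg.Agent.H702.Data
import Cfsg.Agent.H495.OrderType
import Cfsg.Agent.H496.TwoFrob

/-!
# Groups with the order type of a 2-Frobenius group (helper702)
-/

set_option autoImplicit false

namespace Cfsg.Agent.H702.TF

open Subgroup Cfsg
open scoped Pointwise

universe u v

/-- being a 2-Frobenius group -/
def TwoFrob (E : Type u) [Group E] : Prop :=
  ∃ (H K : Subgroup E) (_ : H.Normal), K.Normal ∧ H < K ∧
    (∃ C : Subgroup ↥K, IsFrobeniusComplement C ∧ frobeniusKernel C = (H.subgroupOf K : Set ↥K)) ∧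
    (∃ C : Subgroup (E ⧸ H), IsFrobeniusComplement C ∧
      frobeniusKernel C = (K.map (QuotientGroup.mk' H) : Set (E ⧸ H)))

/-- the data of a 2-Frobenius group -/
theorem TwoFrob.data {E : Type u} [Group E] [Finite E] (h : TwoFrob E) :
    ∃ (H T : Subgroup E) (_ : H.Normal), Iso T ∧ H ≠ ⊥ ∧ (Nat.card H).Coprime (Nat.card T) ∧
      Nat.card (normalizer (T : Set E)) = H.index ∧ 1 < T.relIndex (normalizer (T : Set E)) ∧
      (∀ r s : ℕ, r.Prime → s.Prime → r ∣ Nat.card T → ¬ s ∣ Nat.card T → ∀ g : E, orderOf g ≠ r * s) := by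
  obtain ⟨H, K, hHn, hKn, hlt, hK, hGH⟩ := h
  obtain ⟨-, hodd, hcop, -, hpg⟩ := H496.TwoFrob.main H K hlt hK hGH
  obtain ⟨C, hC, hCk⟩ := hK
  obtain ⟨D, hD, hDk⟩ := hGH
  set N : Subgroup K := H.subgroupOf K with hN
  set M : Subgroup (E ⧸ H) := K.map (QuotientGroup.mk' H) with hM
  obtain ⟨hNn, hNnil, hNc, hNne, hNf, hNcop⟩ := H496.TwoFrob.basic hC hCk
  obtain ⟨hMn, hMnil, hMc, hMne, hMf, hMcop⟩ := H496.TwoFrob.basic hD hDk
  have e0 : Nonempty (K ⧸ N ≃* M) := by
    let f : K →* M := (QuotientGroup.mk' H).subgroupMap K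
    have hf : Function.Surjective f := (QuotientGroup.mk' H).subgroupMap_surjective K
    have hker : f.ker = N := by
      ext x
      rw [MonoidHom.mem_ker, hN, Subgroup.mem_subgroupOf, Subtype.ext_iff]
      exact QuotientGroup.eq_one_iff (x : E)
    exact ⟨(QuotientGroup.quotientMulEquivOfEq hker.symm).trans
      (QuotientGroup.quotientKerEquivOfSurjective f hf)⟩
  obtain ⟨e0⟩ := e0
  have e1 : K ⧸ N ≃* C := hNc.symm.QuotientMulEquiv
  have e4 : C ≃* M := e1.symm.trans e0
  have hCodd : Odd (Nat.card C) := H496.TwoFrob.odd_of_kernel hC hCk hD hDk e4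
  have hCnil : Group.IsNilpotent C := Group.nilpotent_of_mulEquiv e4.symm
  have hCcyc : IsCyclic C := H496.TwoFrob.isCyclic_of_odd hC hCk hCnil hCodd
  have hcC : Nat.card (K ⧸ N) = Nat.card C := Nat.card_congr e1.toEquiv
  have hcM : Nat.card C = Nat.card M := Nat.card_congr e4.toEquiv
  rw [hcC] at hodd hcop hpg
  -- the generator
  obtain ⟨x, hx⟩ := IsCyclic.exists_generator (α := C)
  have hxo : orderOf ((x : K) : E) = Nat.card C := by
    rw [orderOf_coe, orderOf_coe, ← Nat.card_zpowers]
    exact Nat.card_congr (Equiv.subtypeUnivEquiv hx)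
  have hC1 : 1 < Nat.card C := by
    rw [hcM]
    exact (one_lt_card_iff_ne_bot M).2 hMne
  have hcard : Nat.card E = Nat.card C * (Nat.card H * Nat.card (E ⧸ K)) := by
    rw [K.card_eq_card_quotient_mul_card_subgroup, N.card_eq_card_quotient_mul_card_subgroup, hcC, hN,
      Nat.card_congr (subgroupOfEquivOfLe hlt.le).toEquiv]
    ring
  have hno : ∀ r s : ℕ, r.Prime → s.Prime → r ∣ Nat.card C → ¬ s ∣ Nat.card C → ∀ g : E, orderOf g ≠ r * s := by
    intro r s hr hs hrt hst g hg
    have h1 : r ≠ s := by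
      rintro rfl
      exact hst hrt
    have h2 := hpg r s hr hs h1 (((Dvd.intro _ rfl).trans (dvd_of_eq hg.symm)).trans (orderOf_dvd_natCard g))
      (((Dvd.intro_left _ rfl).trans (dvd_of_eq hg.symm)).trans (orderOf_dvd_natCard g))
    exact hst ((h2.1 ⟨g, hg⟩).1 hrt)
  have hiso := Iso.of_order hcard hcop hCodd hC1 hno hxo
  have hTc : Nat.card (zpowers ((x : K) : E)) = Nat.card C := by rw [Nat.card_zpowers, hxo]
  have hHC : (Nat.card H).Coprime (Nat.card (zpowers ((x : K) : E))) := by
    rw [hTc]
    exact (Nat.Coprime.coprime_mul_right_right hcop).symm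
  have hcm : Nat.card ((zpowers ((x : K) : E)).map (QuotientGroup.mk' H)) = Nat.card M := by
    rw [card_map_mk (H := zpowers ((x : K) : E)) (by rw [inf_comm]; exact Iso.inf_eq_bot hHC), hTc, hcM]
  have hTM : (zpowers ((x : K) : E)).map (QuotientGroup.mk' H) = M := by
    apply eq_of_le_of_card_ge
    · apply map_mono
      rw [zpowers_le]
      exact (x : K).2
    · exact hcm.ge
  have hNT := hiso.card_normalizer_quot hHC
  rw [hTM, normalizer_eq_top (H := M), card_top] at hNT
  refine ⟨H, _, hHn, hiso, ?_, hHC, ?_, ?_, ?_⟩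
  · rintro rfl
    apply hNne
    rw [hN]
    exact bot_subgroupOf _
  · rw [← hNT]
    rfl
  · have h1 := card_mul_index ((zpowers ((x : K) : E)).subgroupOf (normalizer (zpowers ((x : K) : E) : Set E)))
    rw [Nat.card_congr (subgroupOfEquivOfLe le_normalizer).toEquiv, ← hNT, hTc, ← hMc.card_mul_card, hcM] at h1
    have h2 := Nat.eq_of_mul_eq_mul_left Nat.card_pos h1
    change 1 < ((zpowers ((x : K) : E)).subgroupOf (normalizer (zpowers ((x : K) : E) : Set E))).index
    rw [h2]
    exact (one_lt_card_iff_ne_bot D).2 hD.1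
  · rw [hTc]
    exact hno

/-- the criterion -/
theorem twoFrob_of {G : Type v} [Group G] [Finite G] {T V : Subgroup G} [V.Normal] (h : Iso T) (hV1 : V ≠ ⊥)
    (hV : (Nat.card V).Coprime (Nat.card T)) (hn : (T.map (QuotientGroup.mk' V)).Normal)
    (hc : 1 < T.relIndex (normalizer (T : Set G))) : TwoFrob G := by
  have hq := h.quot hV
  have hTV : T ⊓ V = ⊥ := by
    rw [inf_comm]
    exact Iso.inf_eq_bot hV
  refine ⟨V, V ⊔ T, inferInstance, ?_, ?_, ⟨_, h.frob hV hV1⟩, ?_⟩
  · have h1 : V ⊔ T = (T.map (QuotientGroup.mk' V)).comap (QuotientGroup.mk' V) := by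
      rw [comap_map_eq, QuotientGroup.ker_mk', sup_comm]
    rw [h1]
    infer_instance
  · refine lt_of_le_of_ne le_sup_left ?_
    intro h1
    have h2 : T ≤ V := h1 ▸ le_sup_right
    have h3 : T = ⊥ := by rw [← hTV, inf_eq_left.2 h2]
    have h4 := h.one_lt
    rw [h3, card_bot] at h4
    omega
  · obtain ⟨R, hR1, hR2, hR3⟩ := hq.exists_compl
    have h1 : (V ⊔ T).map (QuotientGroup.mk' V) = T.map (QuotientGroup.mk' V) := by
      rw [Subgroup.map_sup, QuotientGroup.map_mk'_self, bot_sup_eq]
    have hN : normalizer (T.map (QuotientGroup.mk' V) : Set (G ⧸ V)) = ⊤ := normalizer_eq_top _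
    have h5 : Nat.card R = T.relIndex (normalizer (T : Set G)) := by
      have h6 := card_mul_index ((T.map (QuotientGroup.mk' V)).subgroupOf
        (normalizer (T.map (QuotientGroup.mk' V) : Set (G ⧸ V))))
      have h7 := card_mul_index (T.subgroupOf (normalizer (T : Set G)))
      rw [Nat.card_congr (subgroupOfEquivOfLe le_normalizer).toEquiv, h.card_normalizer_quot hV, card_map_mk hTV] at h6
      rw [Nat.card_congr (subgroupOfEquivOfLe le_normalizer).toEquiv] at h7
      rw [hR3]
      exact Nat.eq_of_mul_eq_mul_left Nat.card_pos (h6.trans h7.symm)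
    refine ⟨R, ?_⟩
    rw [h1]
    apply frob_of
    · apply isComplement'_of_card_mul_and_disjoint
      · rw [hR3, hN, relIndex_top_right, card_mul_index]
      · rw [disjoint_iff, inf_comm]
        exact hR2
    · rintro h2
      have h3 := hq.one_lt
      rw [h2, card_bot] at h3
      omega
    · rw [← one_lt_card_iff_ne_bot, h5]
      exact hc
    · intro y hy hy1
      rw [eq_bot_iff]
      rintro z ⟨hz1, hz2⟩
      rw [mem_bot]
      by_contra hz3
      have h6 : y ∈ R ⊓ T.map (QuotientGroup.mk' V) :=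
        ⟨hy, hq.cent z hz1 hz3 y (mem_centralizer_singleton_iff.1 hz2).symm⟩
      rw [hR2, mem_bot] at h6
      exact hy1 h6

theorem pow_of_mul {a b y z c : ℕ} (hc : c ≠ 0) (hb : b ≠ 0) (h : b * a = y ^ c) (hz : b = z ^ c) :
    ∃ w, a = w ^ c := by
  have h1 : z ^ c ∣ y ^ c := by
    rw [← hz, ← h]
    exact Dvd.intro _ rfl
  rw [Nat.pow_dvd_pow_iff hc] at h1
  obtain ⟨w, rfl⟩ := h1
  refine ⟨w, ?_⟩
  rw [mul_pow, ← hz] at h
  exact Nat.eq_of_mul_eq_mul_left (Nat.pos_of_ne_zero hb) h

theorem dvd_of_two {t s a b : ℕ} (hs : 0 < s) (h1 : t ∣ s ^ a - 1) (h2 : t ∣ s ^ (a + b) - 1) :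
    t ∣ s ^ b - 1 := by
  have h3 : ∀ n, 1 ≤ s ^ n := fun n => Nat.one_le_pow _ _ hs
  rw [← Nat.modEq_iff_dvd' (h3 _)] at h1 h2 ⊢
  rw [pow_add] at h2
  have h4 : 1 * s ^ b ≡ s ^ a * s ^ b [MOD t] := h1.mul_right _
  rw [one_mul] at h4
  exact h2.trans h4.symm

/-- **Groups with the order type of a 2-Frobenius group are 2-Frobenius groups.** -/
theorem main {E : Type u} {G : Type v} [Group E] [Finite E] [Group G] [Finite G] (OT : OrdDiv.OrderTable.{v})
    (hCFSG : ∀ (S : Type v) [Group S] [Finite S] [IsSimpleGroup S], IsKnownSimple' S)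
    (hFT : ∀ (S : Type v) [Group S] [Finite S], Odd (Nat.card S) → Group.IsSolvable S)
    (hE : TwoFrob E) (hT : ∀ m : ℕ, Nat.card {g : E // orderOf g = m} = Nat.card {h : G // orderOf h = m}) :
    TwoFrob G := by
  obtain ⟨e, he⟩ := H495.OrderType.exists_equiv hT
  obtain ⟨H, T, hHn, hiso, hH1, hHT, hNT, hc1, hno⟩ := hE.data
  set t := Nat.card T with ht
  have hcardEG : Nat.card E = Nat.card G := Nat.card_congr e
  have hHnil := hiso.isNilpotent hHT
  -- the element of `G`
  have := hiso.cyc
  obtain ⟨x, hx⟩ := IsCyclic.exists_generator (α := T)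
  have hxo : orderOf (x : E) = t := by
    rw [orderOf_coe, ← Nat.card_zpowers]
    exact Nat.card_congr (Equiv.subtypeUnivEquiv hx)
  have hyo : orderOf (e x) = t := by rw [he, hxo]
  have hisoG : Iso (zpowers (e x)) := by
    refine Iso.of_order (t := t) (m := T.index) ?_ hiso.cop hiso.odd hiso.one_lt ?_ hyo
    · rw [← hcardEG, ht, card_mul_index]
    · intro r s hr hs h1 h2 g hg
      refine hno r s hr hs h1 h2 (e.symm g) ?_
      rw [← hg, ← he, Equiv.apply_symm_apply]
  set U := zpowers (e (x : E)) with hU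
  have hUc : Nat.card U = t := by rw [hU, Nat.card_zpowers, hyo]
  -- the normalizers have the same order
  have hidx : (normalizer (T : Set E)).index = (normalizer (U : Set G)).index := by
    have h1 := hiso.card_orderOf
    have h2 := hisoG.card_orderOf
    rw [← ht, hT] at h1
    rw [hUc] at h2
    have h3 := h1.symm.trans h2
    exact Nat.eq_of_mul_eq_mul_left (Nat.totient_pos.2 (by have := hiso.one_lt; omega)) h3
  have hidxH : (normalizer (T : Set E)).index = Nat.card H := by
    have h1 := card_mul_index (normalizer (T : Set E))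
    have h2 := card_mul_index H
    rw [hNT, ← h2, mul_comm] at h1
    exact Nat.eq_of_mul_eq_mul_right (Nat.pos_of_ne_zero H.index_ne_zero_of_finite) h1
  have hcardN : Nat.card (normalizer (T : Set E)) = Nat.card (normalizer (U : Set G)) := by
    have h1 := card_mul_index (normalizer (T : Set E))
    have h2 := card_mul_index (normalizer (U : Set G))
    rw [hcardEG, ← h2, hidx] at h1
    exact Nat.eq_of_mul_eq_mul_right (Nat.pos_of_ne_zero (index_ne_zero_of_finite)) h1
  have hrel : T.relIndex (normalizer (T : Set E)) = U.relIndex (normalizer (U : Set G)) := by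
    have h1 := card_mul_index (T.subgroupOf (normalizer (T : Set E)))
    have h2 := card_mul_index (U.subgroupOf (normalizer (U : Set G)))
    rw [Nat.card_congr (subgroupOfEquivOfLe le_normalizer).toEquiv] at h1 h2
    rw [hcardN, ← h2, hUc] at h1
    exact Nat.eq_of_mul_eq_mul_left (Nat.card_pos (α := T)) h1
  set c := T.relIndex (normalizer (T : Set E)) with hc
  have hcardE : Nat.card E = Nat.card H * (t * c) := by
    have h1 := card_mul_index (T.subgroupOf (normalizer (T : Set E)))
    rw [Nat.card_congr (subgroupOfEquivOfLe le_normalizer).toEquiv, hNT] at h1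
    rw [← card_mul_index H, ← h1]
    rfl
  -- the largest normal subgroup of order coprime to `t`
  set V := Ot t G with hV
  have hVt : (Nat.card V).Coprime t := Ot_coprime t G
  have hVU : (Nat.card V).Coprime (Nat.card U) := by rwa [hUc]
  have hUV : U ⊓ V = ⊥ := by
    rw [inf_comm]
    exact Iso.inf_eq_bot hVU
  have hq := hisoG.quot hVU
  have hqc : Nat.card (U.map (QuotientGroup.mk' V)) = t := by rw [card_map_mk hUV, hUc]
  have hqN := hisoG.card_normalizer_quot hVU
  have hqidx : Nat.card V * (normalizer (U.map (QuotientGroup.mk' V) : Set (G ⧸ V))).index = Nat.card H := by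
    rw [← hidxH, hidx]
    have h1 := card_mul_index (normalizer (U : Set G))
    have h2 := card_mul_index (normalizer (U.map (QuotientGroup.mk' V) : Set (G ⧸ V)))
    have h3 := V.card_eq_card_quotient_mul_card_subgroup
    rw [hqN] at h2
    rw [← h2, ← h1] at h3
    apply Nat.eq_of_mul_eq_mul_left (Nat.card_pos (α := normalizer (U : Set G)))
    rw [h3]
    ring
  have hqrel : (U.map (QuotientGroup.mk' V)).relIndex (normalizer (U.map (QuotientGroup.mk' V) : Set (G ⧸ V))) = c := by
    rw [hrel]
    have h1 := card_mul_index ((U.map (QuotientGroup.mk' V)).subgroupOf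
      (normalizer (U.map (QuotientGroup.mk' V) : Set (G ⧸ V))))
    have h2 := card_mul_index (U.subgroupOf (normalizer (U : Set G)))
    rw [Nat.card_congr (subgroupOfEquivOfLe le_normalizer).toEquiv] at h1 h2
    rw [hqN, ← h2, hqc, hUc] at h1
    exact Nat.eq_of_mul_eq_mul_left (by have := hiso.one_lt; omega) h1
  by_cases hn : (U.map (QuotientGroup.mk' V)).Normal
  · refine twoFrob_of hisoG ?_ hVU hn (by rw [← hrel]; exact hc1)
    intro h1
    rw [normalizer_eq_top, index_top, mul_one] at hqidx
    apply hH1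
    rw [eq_bot_iff_card, ← hqidx, h1, card_bot]
  · exfalso
    refine hq.main OT hCFSG hFT ?_ hn ?_ ?_ ?_
    · intro N hN hNc
      rw [hqc] at hNc
      have h1 : N.comap (QuotientGroup.mk' V) ≤ V := by
        apply le_Ot (hN.comap _)
        have h2 : Nat.card (N.comap (QuotientGroup.mk' V)) = Nat.card V * Nat.card N := by
          have h3 := card_mul_index (N.comap (QuotientGroup.mk' V))
          rw [index_comap_of_surjective _ (QuotientGroup.mk'_surjective V),
            V.card_eq_card_quotient_mul_card_subgroup, ← card_mul_index N] at h3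
          apply Nat.eq_of_mul_eq_mul_right (Nat.pos_of_ne_zero (index_ne_zero_of_finite (H := N)))
          rw [h3]
          ring
        rw [h2]
        exact Nat.Coprime.mul_left hVt hNc
      rw [eq_bot_iff]
      intro y hy
      obtain ⟨g, rfl⟩ := QuotientGroup.mk'_surjective V y
      exact (QuotientGroup.eq_one_iff g).2 (h1 hy)
    · intro s hs hsX hst
      rw [hqc] at hst
      rw [hqrel]
      by_contra hsc
      have : Fact s.Prime := ⟨hs⟩
      let P0 : Sylow s H := default
      have hP0 : (P0 : Subgroup H).Normal := by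
        have := (Group.isNilpotent_of_finite_tfae (G := H)).out 0 3
        exact this.1 hHnil s ‹_› P0
      have hP0c := P0.characteristic_of_normal hP0
      have hPi : ¬ s ∣ ((P0 : Subgroup H).map H.subtype).index := by
        rw [index_map_subtype, hs.dvd_mul, not_or]
        refine ⟨P0.not_dvd_index, ?_⟩
        intro h1
        have h2 : H.index = t * c := by
          have h3 := card_mul_index H
          rw [hcardE] at h3
          exact Nat.eq_of_mul_eq_mul_left Nat.card_pos h3
        rw [h2, hs.dvd_mul] at h1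
        tauto
      let P : Sylow s E := (P0.isPGroup'.map H.subtype).toSylow hPi
      have hPn : (P : Subgroup E).Normal := by
        change ((P0 : Subgroup H).map H.subtype).Normal
        infer_instance
      let Q : Sylow s G := default
      have hQn := H495.OrderType.sylow_normal he P Q
      have hQV : (Q : Subgroup G) ≤ V := by
        apply le_Ot hQn
        obtain ⟨n, hn⟩ := IsPGroup.iff_card.1 Q.isPGroup'
        rw [hn]
        exact Nat.Coprime.pow_left _ ((hs.coprime_iff_not_dvd).2 hst)
      apply Q.not_dvd_index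
      exact hsX.trans (index_dvd_of_le hQV)
    · rw [hqrel]
      obtain ⟨y, hy⟩ := hiso.exists_pow hHT
      obtain ⟨z, hz⟩ := hisoG.exists_pow hVU
      rw [← hrel] at hz
      rw [← hqidx] at hy
      exact pow_of_mul (by omega) Nat.card_pos.ne' hy hz
    · intro s hs
      rw [hqc]
      have h1 := hiso.dvd_fac hHT hs
      have h2 := hisoG.dvd_fac hVU hs
      rw [hUc] at h2
      rw [← hqidx, Nat.factorization_mul Nat.card_pos.ne' index_ne_zero_of_finite, Finsupp.add_apply] at h1
      exact dvd_of_two hs.pos h2 h1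

end Cfsg.Agent.H702.TF
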